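import Cfsg.Agent.LargeFischer85.Defs
import Cfsg.Agent.ExtraspecialTwo.Aut
import Cfsg.Agent.ExtraspecialTwo.Rank
import Cfsg.Agent.LargeExtraspecial.Pair
import Cfsg.Agent.LargeExtraspecial.Simple
import Cfsg.Agent.U43Mult.Model
import Cfsg.Agent.SmallIso.FieldChange
import Cfsg.Prelude.Def_MonsterType

/-!
Large Fischer type: consequences of the hypothesis which need no knowledge of the unitary group.

* `exists_action`: `H/Q` acts faithfully by isometries on `Q` modulo its centre;
* `exists_sections`: the sections `3`, `PSU(4,3)`, `2` of `H/Q`;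
* `exists_conj_of_pr_eq`, `involution_iff`: elements of `Q` read off from their vectors;
* `pair_structure`, `mem_stabilizer_iff`: what a second conjugate of `z` in `Q` gives.
-/

set_option autoImplicit false

namespace CfsgLib.LargeFischer85

open Cfsg CfsgLib.ExtraspecialTwo CfsgLib.F2Forms
open CfsgLib.LargeExtraspecial (Setting zOf mem_zOf)

variable {G : Type*} [Group G] [Finite G] {z : G}
  {Q : Subgroup (Subgroup.centralizer ({z} : Set G))} [Q.Normal]

theorem setting (hF : IsOfLargeFischerTypeAt z Q) :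
    Setting (Q.map (Subgroup.centralizer ({z} : Set G)).subtype) z := by
  obtain ⟨⟨hz, hFit, hE, -, -⟩, -⟩ := hF
  exact LargeExtraspecial.setting_of_generalizedFitting hz (Subgroup.map_subtype_le _) (by rw [hFit])
    (LargeExtraspecial.isExtraspecial_of_mulEquiv
      (Q.equivMapOfInjective _ (Subgroup.subtype_injective _)) hE)

omit [Finite G] [Q.Normal] in
theorem coe_mem_map {x : Subgroup.centralizer ({z} : Set G)} :
    (x : G) ∈ Q.map (Subgroup.centralizer ({z} : Set G)).subtype ↔ x ∈ Q :=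
  Subgroup.mem_map_iff_mem (Subgroup.subtype_injective _)

omit [Finite G] [Q.Normal] in
theorem card_map (hcard : Nat.card Q = 2 ^ (2 * 6 + 1)) :
    Nat.card ↥(Q.map (Subgroup.centralizer ({z} : Set G)).subtype) = 2 ^ 13 := by
  rw [Subgroup.card_map_of_injective (Subgroup.subtype_injective _), hcard]

theorem mem_center_iff (hF : IsOfLargeFischerTypeAt z Q) (a : ↥Q) :
    a ∈ Subgroup.center ↥Q ↔
      ((a : Subgroup.centralizer ({z} : Set G)) : G) = 1 ∨
        ((a : Subgroup.centralizer ({z} : Set G)) : G) = z := by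
  rw [← (setting hF).mem_iff, mem_zOf, Subgroup.mem_center_iff]
  refine ⟨fun h => ⟨coe_mem_map.2 a.2, ?_⟩, fun h q => Subtype.ext (Subtype.ext
    (h.2 _ (coe_mem_map.2 q.2)))⟩
  rintro _ ⟨q, hq, rfl⟩
  exact congrArg (fun x : ↥Q => ((x : Subgroup.centralizer ({z} : Set G)) : G)) (h ⟨q, hq⟩)

/-- The isometric action of `H/Q` on the space of `Q`. -/
theorem exists_action (hF : IsOfLargeFischerTypeAt z Q) : ∃ q pr act, IsAction z Q q pr act := by
  classical
  obtain ⟨⟨-, -, hE, hcard, -⟩, -⟩ := id hF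
  obtain ⟨n, w, π, hπ, -, hn⟩ := exists_coord hE
  obtain rfl : n = 6 := by
    have := Nat.pow_right_injective (le_refl 2) (hcard.symm.trans hn)
    omega
  let toP : MulAut ↥Q →* Equiv.Perm (Sp 6) := MonoidHom.mk'
    (fun φ =>
      { toFun := hπ.induced φ
        invFun := hπ.induced φ⁻¹
        left_inv := fun v => by
          rw [← LinearMap.comp_apply, hπ.induced_mul, inv_mul_cancel, hπ.induced_one]; rfl
        right_inv := fun v => by
          rw [← LinearMap.comp_apply, hπ.induced_mul, mul_inv_cancel, hπ.induced_one]; rfl })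
    fun φ ψ => Equiv.ext fun v => by
      show hπ.induced (φ * ψ) v = hπ.induced φ (hπ.induced ψ v)
      rw [← hπ.induced_mul, LinearMap.comp_apply]
  let f : ↥(Subgroup.centralizer ({z} : Set G)) →* Equiv.Perm (Sp 6) := toP.comp MulAut.conjNormal
  have hfQ : Q ≤ f.ker := by
    intro c hc
    rw [MonoidHom.mem_ker]
    refine Equiv.ext fun v => ?_
    obtain ⟨x, hx⟩ := hπ.surj (Multiplicative.ofAdd v)
    show hπ.induced (MulAut.conjNormal c) v = v
    rw [← toAdd_ofAdd v, ← hx, hπ.induced_apply,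
      show MulAut.conjNormal c x = ⟨c, hc⟩ * x * ⟨c, hc⟩⁻¹ from Subtype.ext rfl,
      π.map_mul, π.map_mul, π.map_inv, mul_inv_cancel_comm]
  have hker : f.ker ≤ Q := by
    intro c hc
    rw [MonoidHom.mem_ker] at hc
    have h1 : MulAut.conjNormal c ∈ hπ.autHom.ker := by
      rw [MonoidHom.mem_ker]
      refine Subtype.ext (ExtraspecialTwo.gl_ext fun v => ?_)
      rw [hπ.autHom_apply, Subgroup.coe_one, Units.val_one, Matrix.one_mulVec]
      exact Equiv.ext_iff.1 hc v
    rw [hπ.autHom_ker hE] at h1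
    obtain ⟨a, ha⟩ := h1
    have hS := setting hF
    have hmem : ((a : Subgroup.centralizer ({z} : Set G)) : G)⁻¹ * c ∈
        Subgroup.centralizer ((Q.map (Subgroup.centralizer ({z} : Set G)).subtype : Subgroup G) :
          Set G) := by
      rintro _ ⟨x, hx, rfl⟩
      have h2 := congrArg (fun y : ↥Q => ((y : Subgroup.centralizer ({z} : Set G)) : G))
        (DFunLike.congr_fun ha ⟨x, hx⟩)
      simp only [MulAut.conj_apply, MulAut.conjNormal_apply, Subgroup.coe_mul,
        InvMemClass.coe_inv] at h2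
      show (x : G) * (_ * (c : G)) = _ * (c : G) * (x : G)
      calc (x : G) * (((a : Subgroup.centralizer ({z} : Set G)) : G)⁻¹ * c)
          = ((a : Subgroup.centralizer ({z} : Set G)) : G)⁻¹ *
            (((a : Subgroup.centralizer ({z} : Set G)) : G) * x *
              ((a : Subgroup.centralizer ({z} : Set G)) : G)⁻¹) * c := by group
        _ = _ := by rw [h2]; group
    rw [hS.centralizer_eq] at hmem
    have h3 := Subgroup.mul_mem _ (coe_mem_map.2 a.2) (LargeExtraspecial.zOf_le _ hmem)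
    rw [mul_inv_cancel_left] at h3
    exact coe_mem_map.1 h3
  refine ⟨form 6 w, fun a => (π a).toAdd, QuotientGroup.lift Q f hfQ,
    { quad :=
        { zero := by simp [form, quadFormPlus_zero, hb_comm 6 0 w, hb_zero_right]
          add_left := fun a b c => by
            simp only [pol, form_add, hb_add_left]; ring
          nondeg := fun a ha => by
            obtain ⟨b, hb⟩ := hb_nondeg 6 a ha
            refine ⟨b, ?_⟩
            rw [pol, form_add]
            ring_nf
            rw [hb_comm] at hb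
            rw [hb]; decide }
      pr_mul := fun a b => by simp only [map_mul, toAdd_mul]
      pr_zero := fun a => ?_
      pr_surj := fun v => ?_
      pr_sq := fun a => (hπ.sq a).symm
      act_add := fun k v w' => ?_
      act_q := fun k v => ?_
      act_inj := ?_
      act_pr := fun h a b hb => ?_ }⟩
  · rw [← mem_center_iff hF, ← hπ.ker]; exact Iff.rfl
  · obtain ⟨a, ha⟩ := hπ.surj (Multiplicative.ofAdd v)
    exact ⟨a, by rw [ha, toAdd_ofAdd]⟩
  · obtain ⟨c, rfl⟩ := QuotientGroup.mk'_surjective Q k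
    exact map_add (hπ.induced (MulAut.conjNormal c)) v w'
  · obtain ⟨c, rfl⟩ := QuotientGroup.mk'_surjective Q k
    exact hπ.induced_q (MulAut.conjNormal c) v
  · refine (injective_iff_map_eq_one _).2 fun k hk => ?_
    obtain ⟨c, rfl⟩ := QuotientGroup.mk'_surjective Q k
    exact (QuotientGroup.eq_one_iff c).2 (hker hk)
  · show hπ.induced (MulAut.conjNormal h) (π a).toAdd = (π b).toAdd
    rw [hπ.induced_apply, show b = MulAut.conjNormal h a from Subtype.ext hb]

/-- The sections of `H/Q`. -/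
theorem exists_sections (hF : IsOfLargeFischerTypeAt z Q) :
    ∃ (Mb Cb : Subgroup (↥(Subgroup.centralizer ({z} : Set G)) ⧸ Q)) (_ : Mb.Normal)
      (_ : Cb.Normal), Cb ≤ Mb ∧ Nat.card Cb = 3 ∧ Mb.index = 2 ∧
        Nonempty (↥Mb ⧸ Cb.subgroupOf Mb ≃* CfsgLib.U43Mult.G9) := by
  obtain ⟨-, N, M, hN, hM, hQN, hNM, hcard, ⟨K, _, _, hK, ⟨e⟩⟩, hidx⟩ := hF
  have hsurj := QuotientGroup.mk'_surjective Q
  have hMn := hM.map _ hsurj
  have hNn := hN.map _ hsurj
  refine ⟨M.map (QuotientGroup.mk' Q), N.map (QuotientGroup.mk' Q), hMn, hNn,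
    Subgroup.map_mono hNM, ?_, ?_, ?_⟩
  · let φ := (QuotientGroup.mk' Q).subgroupMap N
    have hk : φ.ker = Q.subgroupOf N := by
      ext x
      rw [MonoidHom.mem_ker, Subgroup.mem_subgroupOf, ← QuotientGroup.eq_one_iff]
      exact Subtype.ext_iff
    have h := φ.ker.card_mul_index
    rw [Subgroup.index_ker, MonoidHom.range_eq_top.2 (MonoidHom.subgroupMap_surjective _ _),
      Subgroup.card_top, hk, Nat.card_congr (Subgroup.subgroupOfEquivOfLe hQN).toEquiv, hcard,
      mul_comm 3] at h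
    exact Nat.eq_of_mul_eq_mul_left Nat.card_pos h
  · rw [Subgroup.index_map_eq _ hsurj (by rw [QuotientGroup.ker_mk']; exact hQN.trans hNM), hidx]
  · let φ : ↥M →* ↥(M.map (QuotientGroup.mk' Q)) ⧸
        (N.map (QuotientGroup.mk' Q)).subgroupOf (M.map (QuotientGroup.mk' Q)) :=
      (QuotientGroup.mk' _).comp ((QuotientGroup.mk' Q).subgroupMap M)
    have hφ : Function.Surjective φ :=
      (QuotientGroup.mk'_surjective _).comp (MonoidHom.subgroupMap_surjective _ _)
    have hk : φ.ker = N.subgroupOf M := by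
      ext x
      rw [MonoidHom.mem_ker, MonoidHom.comp_apply, QuotientGroup.mk'_apply,
        QuotientGroup.eq_one_iff, Subgroup.mem_subgroupOf, Subgroup.mem_subgroupOf]
      show QuotientGroup.mk' Q (x : Subgroup.centralizer ({z} : Set G)) ∈ _ ↔ _
      rw [← Subgroup.mem_comap, Subgroup.comap_map_eq, QuotientGroup.ker_mk', sup_eq_left.2 hQN]
    exact ⟨((QuotientGroup.quotientKerEquivOfSurjective φ hφ).symm.trans
      (QuotientGroup.quotientMulEquivOfEq hk)).trans (e.trans (CfsgLib.FieldChange.psuEquiv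
        (FiniteField.ringEquivOfCardEq (K := K) (K' := CfsgLib.U43Mult.GF9)
          (hK.trans CfsgLib.U43Mult.GF9.card_eq.symm)) 4 3))⟩

variable {q : V → ZMod 2} {pr : ↥Q → V}
  {act : (↥(Subgroup.centralizer ({z} : Set G)) ⧸ Q) →* Equiv.Perm V}

/-- Noncentral elements with the same vector are conjugate in `Q`. -/
theorem exists_conj_of_pr_eq (hF : IsOfLargeFischerTypeAt z Q) (hA : IsAction z Q q pr act)
    {a b : ↥Q} (hab : pr a = pr b) (ha : pr a ≠ 0) : ∃ c : ↥Q, c * a * c⁻¹ = b := by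
  have h1 : pr (a⁻¹ * b) = 0 := by
    have h2 := hA.pr_mul a (a⁻¹ * b)
    rw [mul_inv_cancel_left, hab] at h2
    exact add_eq_left.1 h2.symm
  have hS := setting hF
  rcases (hA.pr_zero _).1 h1 with e | e
  · exact ⟨1, by
      rw [one_mul, inv_one, mul_one]
      exact inv_mul_eq_one.1 (Subtype.ext (Subtype.ext e))⟩
  · obtain ⟨_, ⟨c, hc, rfl⟩, hcs⟩ := LargeExtraspecial.exists_conj_eq_mul hS.extraspecial hS.mem_iff
      (coe_mem_map.2 a.2) (fun hz => ha ((hA.pr_zero a).2 ((hS.mem_iff _).1 hz)))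
    refine ⟨⟨c, hc⟩, Subtype.ext (Subtype.ext ?_)⟩
    simp only [Subgroup.coe_mul, InvMemClass.coe_inv] at e ⊢
    refine Eq.trans hcs ?_
    rw [← hS.comm (coe_mem_map.2 a.2)]
    exact (inv_mul_eq_iff_eq_mul.1 e).symm

omit [Finite G] in
/-- The involutions of `Q` other than `z` are the elements with a singular nonzero vector. -/
theorem involution_iff (hA : IsAction z Q q pr act) (x : ↥Q) :
    orderOf (x : Subgroup.centralizer ({z} : Set G)) = 2 ∧
        ((x : Subgroup.centralizer ({z} : Set G)) : G) ≠ z ↔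
      pr x ≠ 0 ∧ q (pr x) = 0 := by
  rw [Subgroup.orderOf_coe]
  constructor
  · rintro ⟨h2, hxz⟩
    refine ⟨fun h => ?_, (hA.pr_sq x).2 (by rw [← pow_two, ← h2, pow_orderOf_eq_one])⟩
    rcases (hA.pr_zero x).1 h with e | e
    · rw [show x = 1 from Subtype.ext (Subtype.ext e), orderOf_one] at h2
      omega
    · exact hxz e
  · rintro ⟨h0, hq⟩
    refine ⟨orderOf_eq_prime (by rw [pow_two]; exact (hA.pr_sq x).1 hq) fun e => h0
      ((hA.pr_zero x).2 (Or.inl ?_)), fun e => h0 ((hA.pr_zero x).2 (Or.inr e))⟩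
    rw [e]; rfl

/-- The vector of `s` is stabilised exactly by the image of its centralizer. -/
theorem mem_stabilizer_iff (hF : IsOfLargeFischerTypeAt z Q) (hA : IsAction z Q q pr act)
    (s : ↥Q) (hs : pr s ≠ 0) (k : ↥(Subgroup.centralizer ({z} : Set G)) ⧸ Q) :
    k ∈ ((Subgroup.centralizer ({z} : Set G) ⊓
        Subgroup.centralizer ({((s : Subgroup.centralizer ({z} : Set G)) : G)} : Set G)).subgroupOf
          (Subgroup.centralizer ({z} : Set G))).map (QuotientGroup.mk' Q) ↔
      act k (pr s) = pr s := by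
  constructor
  · rintro ⟨h, hh, rfl⟩
    refine hA.act_pr h s s (Subtype.ext ?_)
    simp only [Subgroup.coe_mul, InvMemClass.coe_inv]
    have e : (h : G) * ((s : Subgroup.centralizer ({z} : Set G)) : G) =
        ((s : Subgroup.centralizer ({z} : Set G)) : G) * h :=
      Subgroup.mem_centralizer_singleton_iff.1 (Subgroup.mem_inf.1 hh).2
    rw [e, mul_inv_cancel_right]
  · intro hk
    obtain ⟨h, rfl⟩ := QuotientGroup.mk'_surjective Q k
    let b : ↥Q := ⟨h * s * h⁻¹, Subgroup.Normal.conj_mem inferInstance _ s.2 h⟩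
    have hb : pr b = pr s := (hA.act_pr h s b rfl).symm.trans hk
    obtain ⟨c, hc⟩ := exists_conj_of_pr_eq hF hA hb (hb ▸ hs)
    refine ⟨(c : Subgroup.centralizer ({z} : Set G)) * h,
      Subgroup.mem_inf.2 ⟨((c : Subgroup.centralizer ({z} : Set G)) * h).2, ?_⟩, ?_⟩
    · rw [Subgroup.mem_centralizer_singleton_iff]
      have e := congrArg (fun y : ↥Q => ((y : Subgroup.centralizer ({z} : Set G)) : G)) hc
      simp only [b, Subgroup.coe_mul, InvMemClass.coe_inv] at e
      refine mul_inv_eq_iff_eq_mul.1 (Eq.trans ?_ e)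
      simp only [Subgroup.coe_subtype, Subgroup.coe_mul]
      group
    · rw [map_mul, show QuotientGroup.mk' Q (c : Subgroup.centralizer ({z} : Set G)) = 1 from
        (QuotientGroup.eq_one_iff _).2 c.2, one_mul]

section Pair

variable {s g : G}

/-- A second conjugate of `z` in `Q`. -/
theorem pair_structure (hF : IsOfLargeFischerTypeAt z Q)
    (hsQ : ∃ hsc : s ∈ (Subgroup.centralizer ({z} : Set G)), (⟨s, hsc⟩ : (Subgroup.centralizer ({z} : Set G))) ∈ Q) (hs1 : s ≠ z) (hg : g * z * g⁻¹ = s)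
    (X E : Subgroup (↥(Subgroup.centralizer ({z} : Set G)) ⧸ Q))
    (hX : X = (((Subgroup.centralizer ({z} : Set G)) ⊓ Subgroup.centralizer ({s} : Set G)).subgroupOf (Subgroup.centralizer ({z} : Set G))).map (QuotientGroup.mk' Q))
    (hE : E = ((((Q.map (Subgroup.centralizer ({z} : Set G)).subtype).map (MulAut.conj g).toMonoidHom) ⊓ (Subgroup.centralizer ({z} : Set G))).subgroupOf (Subgroup.centralizer ({z} : Set G))).map (QuotientGroup.mk' Q)) :
    IsElementaryAbelian 2 ((Q.map (Subgroup.centralizer ({z} : Set G)).subtype) ⊓ ((Q.map (Subgroup.centralizer ({z} : Set G)).subtype).map (MulAut.conj g).toMonoidHom)) ∧ Nat.card ↥((Q.map (Subgroup.centralizer ({z} : Set G)).subtype) ⊓ ((Q.map (Subgroup.centralizer ({z} : Set G)).subtype).map (MulAut.conj g).toMonoidHom)) ≤ 2 ^ 7 ∧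
      Nat.card E * Nat.card ↥((Q.map (Subgroup.centralizer ({z} : Set G)).subtype) ⊓ ((Q.map (Subgroup.centralizer ({z} : Set G)).subtype).map (MulAut.conj g).toMonoidHom)) = 2 ^ 12 ∧ E ≤ X ∧
      (∀ x ∈ X, ∀ y ∈ E, x * y * x⁻¹ ∈ E) ∧ IsElementaryAbelian 2 E := by
  classical
  obtain ⟨hsc, hsQ'⟩ := hsQ
  have hS := setting hF
  have hsG : s ∈ (Q.map (Subgroup.centralizer ({z} : Set G)).subtype) := ⟨⟨s, hsc⟩, hsQ', rfl⟩
  obtain ⟨⟨-, -, hE2, hcard, -⟩, -⟩ := hF
  have hU : Setting ((Q.map (Subgroup.centralizer ({z} : Set G)).subtype).map (MulAut.conj g).toMonoidHom) s := hg ▸ hS.conj g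
  have hz : z ∈ ((Q.map (Subgroup.centralizer ({z} : Set G)).subtype).map (MulAut.conj g).toMonoidHom) := LargeExtraspecial.mem_conj_of_conj_mem hS
    (by rw [card_map hcard]; norm_num) g (hg ▸ hsG) (hg ▸ hs1)
  have hIsq : ∀ x ∈ (Q.map (Subgroup.centralizer ({z} : Set G)).subtype) ⊓ ((Q.map (Subgroup.centralizer ({z} : Set G)).subtype).map (MulAut.conj g).toMonoidHom), x * x = 1 := by
    intro x hx
    rcases (hS.mem_iff _).1 (LargeExtraspecial.sq_mem hS.extraspecial hx.1) with e | e
    · exact e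
    rcases (hU.mem_iff _).1 (LargeExtraspecial.sq_mem hU.extraspecial hx.2) with e' | e'
    · exact e'
    · exact absurd (e'.symm.trans e) hs1
  have hI : IsElementaryAbelian 2 ((Q.map (Subgroup.centralizer ({z} : Set G)).subtype) ⊓ ((Q.map (Subgroup.centralizer ({z} : Set G)).subtype).map (MulAut.conj g).toMonoidHom)) := ⟨⟨⟨fun a b => Subtype.ext (by
      have h1 := hIsq _ (Subgroup.mul_mem _ a.2 b.2)
      show (a : G) * b = b * a
      rw [← inv_eq_of_mul_eq_one_right h1, mul_inv_rev, inv_eq_of_mul_eq_one_right (hIsq _ a.2),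
        inv_eq_of_mul_eq_one_right (hIsq _ b.2)])⟩⟩,
    fun a ha => by rw [pow_two]; exact hIsq a ha⟩
  have hQH : (Q.map (Subgroup.centralizer ({z} : Set G)).subtype) ≤ (Subgroup.centralizer ({z} : Set G)) := Subgroup.map_subtype_le _
  -- `C(z)` meets the conjugate in index two
  have hD : Nat.card ↥(((Q.map (Subgroup.centralizer ({z} : Set G)).subtype).map (MulAut.conj g).toMonoidHom) ⊓ (Subgroup.centralizer ({z} : Set G))) = 2 ^ 12 := by
    have hidx : ((((Q.map (Subgroup.centralizer ({z} : Set G)).subtype).map (MulAut.conj g).toMonoidHom) ⊓ (Subgroup.centralizer ({z} : Set G))).subgroupOf ((Q.map (Subgroup.centralizer ({z} : Set G)).subtype).map (MulAut.conj g).toMonoidHom)).index = 2 := by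
      obtain ⟨a, ha, hac⟩ := LargeExtraspecial.exists_conj_eq_mul hU.extraspecial hU.mem_iff hz
        (hU.not_mem_zOf hS.z_ne_one hs1.symm)
      refine Subgroup.index_eq_two_iff.2 ⟨⟨a, ha⟩, fun b => ?_⟩
      have hmem : ∀ x : ↥((Q.map (Subgroup.centralizer ({z} : Set G)).subtype).map (MulAut.conj g).toMonoidHom), x ∈ (((Q.map (Subgroup.centralizer ({z} : Set G)).subtype).map (MulAut.conj g).toMonoidHom) ⊓ (Subgroup.centralizer ({z} : Set G))).subgroupOf ((Q.map (Subgroup.centralizer ({z} : Set G)).subtype).map (MulAut.conj g).toMonoidHom) ↔ (x : G) * z * (x : G)⁻¹ = z := fun x => by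
        rw [Subgroup.mem_subgroupOf, Subgroup.mem_inf, Subgroup.mem_centralizer_singleton_iff,
          and_iff_right x.2, mul_inv_eq_iff_eq_mul]
      have hsne : s * z ≠ z := fun e => hU.z_ne_one (mul_eq_right.1 e)
      have hbs : (b : G) * s * (b : G)⁻¹ = s := by rw [hU.comm b.2, mul_inv_cancel_right]
      rw [hmem, hmem, Subgroup.coe_mul]
      rcases LargeExtraspecial.conj_mem_two hU.extraspecial hU.mem_iff b.2 hz with e | e
      · refine Or.inr ⟨e, fun h => hsne ?_⟩
        calc s * z = ((b : G) * s * (b : G)⁻¹) * ((b : G) * z * (b : G)⁻¹) := by rw [hbs, e]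
          _ = (b : G) * (a * z * a⁻¹) * (b : G)⁻¹ := by rw [hac]; group
          _ = (b : G) * a * z * ((b : G) * a)⁻¹ := by group
          _ = z := h
      · refine Or.inl ⟨?_, fun h => hsne (e.symm.trans h)⟩
        calc (b : G) * a * z * ((b : G) * a)⁻¹ = (b : G) * (a * z * a⁻¹) * (b : G)⁻¹ := by group
          _ = ((b : G) * s * (b : G)⁻¹) * ((b : G) * z * (b : G)⁻¹) := by rw [hac]; group
          _ = z := by rw [hbs, e, ← mul_assoc, hU.z_mul_z, one_mul]
    have h := ((((Q.map (Subgroup.centralizer ({z} : Set G)).subtype).map (MulAut.conj g).toMonoidHom) ⊓ (Subgroup.centralizer ({z} : Set G))).subgroupOf ((Q.map (Subgroup.centralizer ({z} : Set G)).subtype).map (MulAut.conj g).toMonoidHom)).card_mul_index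
    rw [hidx, Nat.card_congr (Subgroup.subgroupOfEquivOfLe (inf_le_left : ((Q.map (Subgroup.centralizer ({z} : Set G)).subtype).map (MulAut.conj g).toMonoidHom) ⊓ (Subgroup.centralizer ({z} : Set G)) ≤ ((Q.map (Subgroup.centralizer ({z} : Set G)).subtype).map (MulAut.conj g).toMonoidHom))).toEquiv,
      Subgroup.card_map_of_injective (MulAut.conj g).injective, card_map hcard, pow_succ] at h
    exact Nat.eq_of_mul_eq_mul_right two_pos h
  refine ⟨hI, ?_, ?_, ?_, ?_, ?_⟩
  · obtain ⟨n, w, π, hπ, -, hn⟩ := exists_coord hE2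
    obtain rfl : n = 6 := by
      have := Nat.pow_right_injective (le_refl 2) (hcard.symm.trans hn)
      omega
    have h1 := (hπ.card_le ((((Q.map (Subgroup.centralizer ({z} : Set G)).subtype) ⊓ ((Q.map (Subgroup.centralizer ({z} : Set G)).subtype).map (MulAut.conj g).toMonoidHom)).subgroupOf (Subgroup.centralizer ({z} : Set G))).subgroupOf Q) fun a ha =>
      Subtype.ext (Subtype.ext (hIsq _ ha))).1
    rwa [Nat.card_congr (Subgroup.subgroupOfEquivOfLe (show ((Q.map (Subgroup.centralizer ({z} : Set G)).subtype) ⊓ ((Q.map (Subgroup.centralizer ({z} : Set G)).subtype).map (MulAut.conj g).toMonoidHom)).subgroupOf (Subgroup.centralizer ({z} : Set G)) ≤ Q from fun x hx => coe_mem_map.1 (Subgroup.mem_inf.1 hx).1)).toEquiv,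
      Nat.card_congr (Subgroup.subgroupOfEquivOfLe (inf_le_left.trans hQH)).toEquiv] at h1
  · let φ := (QuotientGroup.mk' Q).subgroupMap ((((Q.map (Subgroup.centralizer ({z} : Set G)).subtype).map (MulAut.conj g).toMonoidHom) ⊓ (Subgroup.centralizer ({z} : Set G))).subgroupOf (Subgroup.centralizer ({z} : Set G)))
    have hker : φ.ker.map (Subgroup.subtype _) = ((Q.map (Subgroup.centralizer ({z} : Set G)).subtype) ⊓ ((Q.map (Subgroup.centralizer ({z} : Set G)).subtype).map (MulAut.conj g).toMonoidHom)).subgroupOf (Subgroup.centralizer ({z} : Set G)) := by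
      ext x
      constructor
      · rintro ⟨⟨x, hx⟩, hk, rfl⟩
        exact ⟨coe_mem_map.2 ((QuotientGroup.eq_one_iff x).1 (congrArg Subtype.val hk)), hx.1⟩
      · rintro ⟨h1, h2⟩
        exact ⟨⟨x, h2, x.2⟩, Subtype.ext ((QuotientGroup.eq_one_iff x).2 (coe_mem_map.1 h1)), rfl⟩
    have h := φ.ker.card_mul_index
    rw [Subgroup.index_ker, MonoidHom.range_eq_top.2 (MonoidHom.subgroupMap_surjective _ _),
      Subgroup.card_top, ← Subgroup.card_map_of_injective (Subgroup.subtype_injective _) (K := φ.ker),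
      hker, Nat.card_congr (Subgroup.subgroupOfEquivOfLe (inf_le_left.trans hQH)).toEquiv,
      Nat.card_congr (Subgroup.subgroupOfEquivOfLe (inf_le_right : ((Q.map (Subgroup.centralizer ({z} : Set G)).subtype).map (MulAut.conj g).toMonoidHom) ⊓ (Subgroup.centralizer ({z} : Set G)) ≤ (Subgroup.centralizer ({z} : Set G)))).toEquiv, hD, ← hE,
      mul_comm] at h
    exact h
  · subst hX hE
    refine Subgroup.map_mono fun x hx => Subgroup.mem_inf.2 ⟨x.2, ?_⟩
    exact Subgroup.mem_centralizer_singleton_iff.2 (hU.comm (Subgroup.mem_inf.1 hx).1)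
  · subst hX hE
    rintro _ ⟨x, hx, rfl⟩ _ ⟨y, hy, rfl⟩
    refine ⟨x * y * x⁻¹, Subgroup.mem_inf.2 ⟨?_, (x * y * x⁻¹).2⟩, by simp only [map_mul, map_inv]⟩
    exact (hU.normalized _ (Subgroup.mem_centralizer_singleton_iff.1 (Subgroup.mem_inf.1 hx).2) _).1
      (Subgroup.mem_inf.1 hy).1
  · subst hE
    have hEsq : ∀ e ∈ ((((Q.map (Subgroup.centralizer ({z} : Set G)).subtype).map (MulAut.conj g).toMonoidHom) ⊓ (Subgroup.centralizer ({z} : Set G))).subgroupOf (Subgroup.centralizer ({z} : Set G))).map (QuotientGroup.mk' Q), e * e = 1 := by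
      rintro _ ⟨y, hy, rfl⟩
      rw [← map_mul, QuotientGroup.mk'_apply, QuotientGroup.eq_one_iff]
      rcases (hU.mem_iff _).1 (LargeExtraspecial.sq_mem hU.extraspecial (Subgroup.mem_inf.1 hy).1)
        with e | e
      · rw [show y * y = 1 from Subtype.ext e]; exact Q.one_mem
      · rw [show y * y = ⟨s, hsc⟩ from Subtype.ext e]; exact hsQ'
    exact ⟨⟨⟨fun a b => Subtype.ext (by
        have h1 := hEsq _ (Subgroup.mul_mem _ a.2 b.2)
        show (a : ↥(Subgroup.centralizer ({z} : Set G)) ⧸ Q) * b = b * a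
        rw [← inv_eq_of_mul_eq_one_right h1, mul_inv_rev, inv_eq_of_mul_eq_one_right (hEsq _ a.2),
          inv_eq_of_mul_eq_one_right (hEsq _ b.2)])⟩⟩,
      fun a ha => by rw [pow_two]; exact hEsq a ha⟩

end Pair

end CfsgLib.LargeFischer85
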