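import Cfsg.Agent.LargeFischer85.OrbitData69

/-!
The two orbits of a frame group on the nonzero singular vectors.
-/

set_option autoImplicit false

namespace CfsgLib.LargeFischer85

namespace Orb69

variable {M : Subgroup (Equiv.Perm (Fin 4096))}

theorem exists_to_rep (hM : IsFrameGroup M) :
    ∀ n : Fin 4096, n ≠ 0 → ∃ m ∈ M, m n = rep (typ n) := by
  suffices H : ∀ N : ℕ, ∀ n : Fin 4096, n.val = N → n ≠ 0 → ∃ m ∈ M, m n = rep (typT n) by
    intro n hn
    rw [typ_eq]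
    exact H n.val n rfl hn
  intro N
  induction N using Nat.strong_induction_on with
  | _ N ih =>
    intro n hN hn
    rcases descend n hn with h | h
    · exact ⟨1, M.one_mem, by simpa using h⟩
    simp only [step, List.any_eq_true, Bool.and_eq_true] at h
    obtain ⟨i, -, hlt, htyp⟩ := h
    obtain ⟨m, hm, hmn⟩ := hM.mon (sg i) (sign_sg i) (ep i) (sum_ep i)
    rw [← hmn n] at hlt htyp
    have hne : m n ≠ 0 := fun h => hn (m.injective (by rw [h, hM.zero m hm]))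
    obtain ⟨m', hm', h'⟩ := ih (m n).val (hN ▸ Nat.le_of_ble_eq_true hlt) (m n) rfl hne
    refine ⟨m' * m, M.mul_mem hm' hm, ?_⟩
    rw [Equiv.Perm.mul_apply, h', Nat.eq_of_beq_eq_true htyp]

/-- The orbit of a vector. -/
noncomputable def orb (M : Subgroup (Equiv.Perm (Fin 4096))) (r : Fin 4096) : Finset (Fin 4096) :=
  haveI := Classical.decPred fun u => ∃ m ∈ M, m r = u
  Finset.univ.filter fun u => ∃ m ∈ M, m r = u

theorem mem_orb {r u : Fin 4096} : u ∈ orb M r ↔ ∃ m ∈ M, m r = u := by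
  simp [orb]

theorem self_mem_orb (r : Fin 4096) : r ∈ orb M r := mem_orb.2 ⟨1, M.one_mem, rfl⟩

theorem apply_mem_orb {r u : Fin 4096} {m : Equiv.Perm (Fin 4096)} (hm : m ∈ M) :
    m u ∈ orb M r ↔ u ∈ orb M r := by
  simp only [mem_orb]
  constructor
  · rintro ⟨k, hk, h⟩
    exact ⟨m⁻¹ * k, M.mul_mem (M.inv_mem hm) hk, by
      rw [Equiv.Perm.mul_apply, h]; exact m.symm_apply_apply u⟩
  · rintro ⟨k, hk, rfl⟩
    exact ⟨m * k, M.mul_mem hm hk, rfl⟩

theorem mem_orb_iff_rep (hM : IsFrameGroup M) {r u : Fin 4096} (hu : u ≠ 0) :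
    u ∈ orb M r ↔ rep (typ u) ∈ orb M r := by
  obtain ⟨m, hm, h⟩ := exists_to_rep hM u hu
  rw [← h, apply_mem_orb hm]

/-- The number of vectors of an orbit orthogonal to a given one. -/
noncomputable def hc (M : Subgroup (Equiv.Perm (Fin 4096))) (r₀ r : Fin 4096) : ℕ :=
  ((orb M r₀).filter fun u => herm r u).card

theorem hc_apply (hM : IsFrameGroup M) {r₀ r : Fin 4096} {m : Equiv.Perm (Fin 4096)} (hm : m ∈ M) :
    hc M r₀ (m r) = hc M r₀ r := by
  refine (Finset.card_equiv m fun u => ?_).symm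
  simp only [Finset.mem_filter, apply_mem_orb hm, hM.herm_iff m hm]

theorem hc_eq_of_mem (hM : IsFrameGroup M) {r₀ r₁ r : Fin 4096} (h : r ∈ orb M r₁) :
    hc M r₀ r = hc M r₀ r₁ := by
  obtain ⟨m, hm, rfl⟩ := mem_orb.1 h
  exact hc_apply hM hm

/-- The list of the singular types. -/
def tys : List ℕ := [2, 4, 6, 7, 8]

theorem card_filter_orb (hM : IsFrameGroup M) {r₀ : Fin 4096} (h0 : r₀ ≠ 0) (hs : sing r₀)
    (P : Fin 4096 → Prop) [DecidablePred P] (S : Finset ℕ)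
    (hS : ∀ t ∈ tys, (rep t ∈ orb M r₀ ↔ t ∈ S)) (hsub : ∀ t ∈ S, t ∈ tys) :
    ((orb M r₀).filter P).card =
      ∑ t ∈ S, (Finset.univ.filter fun u => typ u = t ∧ P u).card := by
  classical
  rw [← Finset.card_biUnion]
  · congr 1
    ext u
    simp only [Finset.mem_filter, Finset.mem_biUnion, Finset.mem_univ, true_and]
    constructor
    · rintro ⟨hu, hP⟩
      obtain ⟨m, hm, rfl⟩ := mem_orb.1 hu
      have hne : m r₀ ≠ 0 := fun h => h0 (m.injective (by rw [h, hM.zero m hm]))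
      have hsg : sing (m r₀) := (hM.sing_iff m hm r₀).2 hs
      have htm : typ (m r₀) ∈ tys := by
        simpa [tys] using typ_sing _ hne hsg
      exact ⟨_, (hS _ htm).1 ((mem_orb_iff_rep hM hne).1 hu), rfl, hP⟩
    · rintro ⟨t, ht, rfl, hP⟩
      have hne := (sing_of_typ u (by simpa [tys] using hsub _ ht)).1
      exact ⟨(mem_orb_iff_rep hM hne).2 ((hS _ (hsub _ ht)).2 ht), hP⟩
  · intro s _ t _ hst
    rw [Function.onFun, Finset.disjoint_left]
    simp only [Finset.mem_filter, Finset.mem_univ, true_and]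
    rintro u ⟨rfl, -⟩ ⟨h, -⟩
    exact hst h

theorem hc_eq_sum (hM : IsFrameGroup M) {r₀ : Fin 4096} (h0 : r₀ ≠ 0) (hs : sing r₀) (S : Finset ℕ)
    (hS : ∀ t ∈ tys, (rep t ∈ orb M r₀ ↔ t ∈ S)) (hsub : ∀ t ∈ S, t ∈ tys) (r : Fin 4096) :
    hc M r₀ r = ∑ t ∈ S, cT r t := by
  simp only [cT_eq]
  exact card_filter_orb hM h0 hs _ S hS hsub

theorem card_eq_sum (hM : IsFrameGroup M) {r₀ : Fin 4096} (h0 : r₀ ≠ 0) (hs : sing r₀) (S : Finset ℕ)
    (hS : ∀ t ∈ tys, (rep t ∈ orb M r₀ ↔ t ∈ S)) (hsub : ∀ t ∈ S, t ∈ tys) :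
    (orb M r₀).card = ∑ t ∈ S, sz t := by
  classical
  have := card_filter_orb hM h0 hs (fun _ => True) S hS hsub
  simp only [Finset.filter_true, and_true] at this
  simpa only [sz, ← typ_eq] using this

theorem card_orb_dvd (hM : IsFrameGroup M) (r : Fin 4096) : (orb M r).card ∣ 9797760 := by
  have h := Nat.card_congr (MulAction.orbitEquivQuotientStabilizer M r)
  have hd : Nat.card (MulAction.orbit M r) ∣ Nat.card M := by
    rw [h]
    exact Subgroup.card_quotient_dvd_card _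
  rw [hM.card] at hd
  refine (dvd_of_eq ?_).trans hd
  rw [Nat.card_coe_set_eq, ← Set.ncard_coe_finset]
  congr 1
  ext u
  rw [Finset.mem_coe, mem_orb, MulAction.mem_orbit_iff]
  exact ⟨fun ⟨m, hm, h⟩ => ⟨⟨m, hm⟩, h⟩, fun ⟨⟨m, hm⟩, h⟩ => ⟨m, hm, h⟩⟩

theorem hc_wt_one (hM : IsFrameGroup M) {r₀ : Fin 4096}
    (hc3 : hc M r₀ (rep 1) ≠ hc M r₀ (rep 3)) (hc5 : hc M r₀ (rep 1) ≠ hc M r₀ (rep 5)) : False := by
  obtain ⟨m, hm, n, hn, hmn⟩ := hM.moves
  have hn0 : n ≠ 0 := fun h => by subst h; exact absurd hn (by decide)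
  have hm0 : m n ≠ 0 := fun h => hn0 (m.injective (by rw [h, hM.zero m hm]))
  have hodd : wt (m n) % 2 = 1 := by
    have h := hM.sing_iff m hm n
    simp only [sing] at h
    omega
  have hle := wt_le (m n)
  obtain ⟨a, ha, han⟩ := exists_to_rep hM n hn0
  obtain ⟨b, hb, hbn⟩ := exists_to_rep hM (m n) hm0
  have hne1 : wt n ≠ 6 := by omega
  rw [typ, if_neg hne1, hn] at han
  rw [typ, if_neg (by omega)] at hbn
  have e : hc M r₀ (rep 1) = hc M r₀ (rep (wt (m n))) := by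
    rw [← han, ← hbn, hc_apply hM ha, hc_apply hM hb, hc_apply hM hm]
  have hcases : wt (m n) = 3 ∨ wt (m n) = 5 := by omega
  rcases hcases with h | h <;> rw [h] at e
  · exact hc3 e
  · exact hc5 e

theorem rows :
    (cT (rep 1) 2 = 90 ∧ cT (rep 3) 2 = 36 ∧ cT (rep 5) 2 = 30) ∧
    (cT (rep 2) 2 = 57 ∧ cT (rep 2) 4 = 243 ∧ cT (rep 2) 6 = 81 ∧ cT (rep 2) 7 = 81 ∧ cT (rep 2) 8 = 81) ∧
    (cT (rep 4) 2 = 27 ∧ cT (rep 4) 4 = 327 ∧ cT (rep 4) 6 = 63 ∧ cT (rep 4) 7 = 63 ∧ cT (rep 4) 8 = 63) ∧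
    (cT (rep 6) 2 = 45 ∧ cT (rep 6) 4 = 315 ∧ cT (rep 6) 6 = 93 ∧ cT (rep 6) 7 = 45 ∧ cT (rep 6) 8 = 45) ∧
    (cT (rep 7) 2 = 45 ∧ cT (rep 7) 4 = 315 ∧ cT (rep 7) 6 = 45 ∧ cT (rep 7) 7 = 93 ∧ cT (rep 7) 8 = 45) ∧
    (cT (rep 8) 2 = 45 ∧ cT (rep 8) 4 = 315 ∧ cT (rep 8) 6 = 45 ∧ cT (rep 8) 7 = 45 ∧ cT (rep 8) 8 = 93) ∧
    (sz 2 = 135 ∧ sz 4 = 1215 ∧ sz 6 = 243 ∧ sz 7 = 243 ∧ sz 8 = 243) := by
  have a := row_one
  have b := row_two
  have c := row_three
  have d := row_four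
  have e := row_five
  have f := row_six
  have g := row_seven
  have h := row_eight
  have i := sizes
  simp only [row, List.cons.injEq, and_true] at a b c d e f g h i
  exact ⟨⟨a.1, c.1, e.1⟩, b, d, f, g, h, i⟩

theorem rep_eq : rep 2 = 5 ∧ rep 4 = 85 ∧ rep 6 = 1365 ∧ rep 7 = 1366 ∧ rep 8 = 1367 := by decide

theorem first_orbit (hM : IsFrameGroup M) :
    ∃ k : ZMod 3, ∀ n, n ∈ orb M (rep 2) ↔ inOne k n := by
  classical
  obtain ⟨⟨a1, a3, a5⟩, ⟨b2, b4, b6, b7, b8⟩, ⟨d2, d4, d6, d7, d8⟩, ⟨f2, f4, f6, f7, f8⟩,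
    ⟨g2, g4, g6, g7, g8⟩, ⟨h2, h4, h6, h7, h8⟩, ⟨s2, s4, s6, s7, s8⟩⟩ := rows
  have h0 : rep 2 ≠ 0 := by decide
  have hs : sing (rep 2) := by decide
  set S := (tys.toFinset).filter fun t => rep t ∈ orb M (rep 2) with hSdef
  have hS : ∀ t ∈ tys, (rep t ∈ orb M (rep 2) ↔ t ∈ S) := fun t ht => by
    simp [hSdef, ht]
  have hsub : ∀ t ∈ S, t ∈ tys := fun t ht => by simpa [hSdef] using (Finset.mem_filter.1 ht).1
  have key : ∀ t ∈ tys, t ∈ S → ∑ u ∈ S, cT (rep t) u = ∑ u ∈ S, cT (rep 2) u := fun t ht htS => by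
    rw [← hc_eq_sum hM h0 hs S hS hsub, ← hc_eq_sum hM h0 hs S hS hsub,
      hc_eq_of_mem hM ((hS t ht).2 htS)]
  have h2S : 2 ∈ S := (hS 2 (by simp [tys])).1 (self_mem_orb _)
  have hcard := card_orb_dvd hM (rep 2)
  rw [card_eq_sum hM h0 hs S hS hsub] at hcard
  have hone : ∀ k : ZMod 3, (∀ t ∈ tys, (t ∈ S ↔ t = 2 ∨ t = 6 + k.val)) →
      ∀ n, n ∈ orb M (rep 2) ↔ inOne k n := by
    intro k hk n
    rw [inOne_iff]
    constructor
    · intro hn
      obtain ⟨m, hm, rfl⟩ := mem_orb.1 hn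
      have hne : m (rep 2) ≠ 0 := fun h => h0 (m.injective (by rw [h, hM.zero m hm]))
      have ht : typ (m (rep 2)) ∈ tys := by
        simpa [tys] using typ_sing _ hne ((hM.sing_iff m hm _).2 hs)
      exact (hk _ ht).1 ((hS _ ht).1 ((mem_orb_iff_rep hM hne).1 hn))
    · intro hn
      have ht : typ n ∈ tys := by
        have hv := k.val_lt
        simp only [tys, List.mem_cons, List.not_mem_nil, or_false]
        omega
      exact (mem_orb_iff_rep hM (sing_of_typ n (by simpa [tys] using ht)).1).2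
        ((hS _ ht).2 ((hk _ ht).2 hn))
  have hS5 : S = (({2, 4, 6, 7, 8} : Finset ℕ)).filter (fun t => t ∈ S) := by
    ext t
    simp only [Finset.mem_filter, Finset.mem_insert, Finset.mem_singleton]
    exact ⟨fun h => ⟨by simpa [tys] using hsub t h, h⟩, fun h => h.2⟩
  rw [hS5] at key hcard
  by_cases p4 : 4 ∈ S <;> by_cases p6 : 6 ∈ S <;> by_cases p7 : 7 ∈ S <;> by_cases p8 : 8 ∈ S
  all_goals
    simp [Finset.filter_insert, Finset.filter_singleton, h2S, p4, p6, p7, p8, s2, s4, s6, s7, s8]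
      at key hcard
  all_goals first
    | (exfalso
       have hh : 4 ∈ S := p4
       have := key 4 (by simp [tys]) (by simp)
       simp [b2, b4, b6, b7, b8, d2, d4, d6, d7, d8] at this
       done)
    | (exfalso
       have hh : 6 ∈ S := p6
       have := key 6 (by simp [tys]) (by simp)
       simp [b2, b4, b6, b7, b8, f2, f4, f6, f7, f8] at this
       done)
    | (exfalso
       have hh : 7 ∈ S := p7
       have := key 7 (by simp [tys]) (by simp)
       simp [b2, b4, b6, b7, b8, g2, g4, g6, g7, g8] at this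
       done)
    | (exfalso; norm_num at hcard; done)
    | (refine ⟨0, hone 0 fun t ht => ?_⟩
       simp [tys] at ht
       rcases ht with rfl | rfl | rfl | rfl | rfl <;> simp [h2S, p4, p6, p7, p8]
       done)
    | (refine ⟨1, hone 1 fun t ht => ?_⟩
       simp [tys] at ht
       rcases ht with rfl | rfl | rfl | rfl | rfl <;> simp [h2S, p4, p6, p7, p8, ZMod.val_one]
       done)
    | (refine ⟨2, hone 2 fun t ht => ?_⟩
       simp [tys] at ht
       rcases ht with rfl | rfl | rfl | rfl | rfl <;> simp [h2S, p4, p6, p7, p8, show (2 : ZMod 3).val = 2 from rfl]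
       done)
    | (exfalso
       have e : ∀ r, hc M (rep 2) r = cT r 2 := fun r => by
         rw [hc_eq_sum hM h0 hs S hS hsub, hS5]
         simp [Finset.filter_insert, Finset.filter_singleton, h2S, p4, p6, p7, p8]
       exact hc_wt_one hM (r₀ := rep 2) (by rw [e, e, a1, a3]; decide) (by rw [e, e, a1, a5]; decide))

theorem second_orbit (hM : IsFrameGroup M) {k : ZMod 3}
    (hk : ∀ n, n ∈ orb M (rep 2) ↔ inOne k n) : ∀ n, n ∈ orb M (rep 4) ↔ inTwo k n := by
  classical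
  obtain ⟨⟨a1, a3, a5⟩, ⟨b2, b4, b6, b7, b8⟩, ⟨d2, d4, d6, d7, d8⟩, ⟨f2, f4, f6, f7, f8⟩,
    ⟨g2, g4, g6, g7, g8⟩, ⟨h2, h4, h6, h7, h8⟩, -⟩ := rows
  have h0 : rep 4 ≠ 0 := by decide
  have hs : sing (rep 4) := by decide
  have hout : rep 4 ∉ orb M (rep 2) := fun h => by
    exact (show ∀ j : ZMod 3, ¬ inOne j (rep 4) by decide) k ((hk _).1 h)
  have hdisj : ∀ n, n ∈ orb M (rep 4) → ¬ inOne k n := fun n hn h1 => by
    obtain ⟨m, hm, rfl⟩ := mem_orb.1 hn
    exact hout ((apply_mem_orb hm).1 ((hk _).2 h1))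
  set S := (tys.toFinset).filter fun t => rep t ∈ orb M (rep 4) with hSdef
  have hS : ∀ t ∈ tys, (rep t ∈ orb M (rep 4) ↔ t ∈ S) := fun t ht => by
    simp [hSdef, ht]
  have hsub : ∀ t ∈ S, t ∈ tys := fun t ht => by simpa [hSdef] using (Finset.mem_filter.1 ht).1
  have key : ∀ r₁ r, r ∈ orb M r₁ → ∑ u ∈ S, cT r u = ∑ u ∈ S, cT r₁ u := fun r₁ r h => by
    rw [← hc_eq_sum hM h0 hs S hS hsub, ← hc_eq_sum hM h0 hs S hS hsub, hc_eq_of_mem hM h]
  have h4S : 4 ∈ S := (hS 4 (by simp [tys])).1 (self_mem_orb _)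
  have h2S : 2 ∉ S := fun h => hdisj _ ((hS 2 (by simp [tys])).2 h) (Or.inl (by decide))
  have hS5 : S = (({2, 4, 6, 7, 8} : Finset ℕ)).filter (fun t => t ∈ S) := by
    ext t
    simp only [Finset.mem_filter, Finset.mem_insert, Finset.mem_singleton]
    exact ⟨fun h => ⟨by simpa [tys] using hsub t h, h⟩, fun h => h.2⟩
  have hmain : ∀ t ∈ tys, (t ∈ S ↔ ¬ (t = 2 ∨ t = 6 + k.val)) := by
    rw [hS5] at key
    have k6 : rep (6 + k.val) ∈ orb M (rep 2) := (hk _).2 ((inOne_iff _ _).2 (Or.inr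
      ((show ∀ j : ZMod 3, typ (rep (6 + j.val)) = 6 + j.val by decide) k)))
    have hkS : 6 + k.val ∉ S := fun h => hdisj _ ((hS _ (by
      have := k.val_lt
      simp only [tys, List.mem_cons, List.not_mem_nil, or_false]
      omega)).2 h) ((hk _).1 k6)
    have e1 := key (rep 2) _ k6
    have e4 : ∀ t ∈ tys, t ∈ S → ∑ u ∈ ({2, 4, 6, 7, 8} : Finset ℕ) with u ∈ S, cT (rep t) u =
        ∑ u ∈ ({2, 4, 6, 7, 8} : Finset ℕ) with u ∈ S, cT (rep 4) u :=
      fun t ht h => key (rep 4) _ ((hS t ht).2 h)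
    intro t ht
    simp only [tys, List.mem_cons, List.not_mem_nil, or_false] at ht
    have hk3 : k.val = 0 ∨ k.val = 1 ∨ k.val = 2 := by have := k.val_lt; omega
    by_cases p6 : 6 ∈ S <;> by_cases p7 : 7 ∈ S <;> by_cases p8 : 8 ∈ S
    all_goals
      simp [Finset.filter_insert, Finset.filter_singleton, h2S, h4S, p6, p7, p8] at e1 e4
    all_goals rcases hk3 with hv | hv | hv <;> simp only [hv, Nat.add_zero, Nat.reduceAdd] at hkS e1 ⊢
    all_goals first
      | (exfalso; exact hkS p6)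
      | (exfalso; exact hkS p7)
      | (exfalso; exact hkS p8)
      | (exfalso
         simp [b4, b6, b7, b8, f4, f6, f7, f8, g4, g6, g7, g8, h4, h6, h7, h8] at e1
         done)
      | (exfalso
         have := e4 6 (by simp [tys]) p6
         simp [d4, d6, d7, d8, f4, f6, f7, f8] at this
         done)
      | (exfalso
         have := e4 7 (by simp [tys]) p7
         simp [d4, d6, d7, d8, g4, g6, g7, g8] at this
         done)
      | (exfalso
         have := e4 8 (by simp [tys]) p8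
         simp [d4, d6, d7, d8, h4, h6, h7, h8] at this
         done)
      | (rcases ht with rfl | rfl | rfl | rfl | rfl <;> simp [h2S, h4S, p6, p7, p8])
  intro n
  constructor
  · intro hn
    obtain ⟨m, hm, rfl⟩ := mem_orb.1 hn
    exact ⟨fun h => h0 (m.injective (by rw [h, hM.zero m hm])), (hM.sing_iff m hm _).2 hs,
      hdisj _ hn⟩
  · rintro ⟨hne, hsn, hnot⟩
    have ht : typ n ∈ tys := by simpa [tys] using typ_sing n hne hsn
    rw [inOne_iff] at hnot
    exact (mem_orb_iff_rep hM hne).2 ((hS _ ht).2 ((hmain _ ht).2 hnot))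

theorem stable_aux (hM : IsFrameGroup M) {k : ZMod 3} (hk : ∀ n, n ∈ orb M (rep 2) ↔ inOne k n)
    (hk' : ∀ n, n ∈ orb M (rep 4) ↔ inTwo k n) (g : Equiv.Perm (Fin 4096)) (h0 : g 0 = 0)
    (hs : ∀ n, sing (g n) ↔ sing n) (hconj : ∀ m ∈ M, g * m * g⁻¹ ∈ M) (n : Fin 4096) :
    inOne k (g n) ↔ inOne k n := by
  classical
  have hsurj : ∀ m ∈ M, g⁻¹ * m * g ∈ M := by
    intro m hm
    have hinj : Function.Injective fun a : M => (⟨g * a * g⁻¹, hconj _ a.2⟩ : M) := by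
      intro a b h
      exact Subtype.ext (mul_left_cancel (mul_right_cancel (congrArg Subtype.val h)))
    obtain ⟨a, ha⟩ := (Finite.surjective_of_injective hinj) ⟨m, hm⟩
    have := congrArg Subtype.val ha
    simp only at this
    rw [← this]
    simpa [mul_assoc] using a.2
  have himg : ∀ r u, g u ∈ orb M (g r) ↔ u ∈ orb M r := by
    intro r u
    simp only [mem_orb]
    constructor
    · rintro ⟨m, hm, h⟩
      exact ⟨g⁻¹ * m * g, hsurj m hm, by
        simp only [Equiv.Perm.mul_apply, h]; exact g.symm_apply_apply u⟩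
    · rintro ⟨m, hm, rfl⟩
      exact ⟨g * m * g⁻¹, hconj m hm, by
        simp only [Equiv.Perm.mul_apply]; rw [show g⁻¹ (g r) = r from g.symm_apply_apply r]⟩
  have hcards : (orb M (g (rep 2))).card = (orb M (rep 2)).card :=
    (Finset.card_equiv g fun u => (himg _ u).symm).symm
  have same : ∀ r u, u ∈ orb M r → orb M u = orb M r := fun r u h => by
    obtain ⟨m, hm, rfl⟩ := mem_orb.1 h
    ext v
    simp only [mem_orb]
    exact ⟨fun ⟨a, ha, h⟩ => ⟨a * m, M.mul_mem ha hm, h⟩,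
      fun ⟨a, ha, h⟩ => ⟨a * m⁻¹, M.mul_mem ha (M.inv_mem hm), by
        rw [Equiv.Perm.mul_apply, show m⁻¹ (m r) = r from m.symm_apply_apply r, h]⟩⟩
  by_cases h2 : inOne k (g (rep 2))
  · rw [← hk, ← hk, ← himg (rep 2) n, same (rep 2) (g (rep 2)) ((hk _).2 h2)]
  exfalso
  have hC : inTwo k (g (rep 2)) := by
    refine ⟨fun h => ?_, (hs _).2 (by decide), h2⟩
    exact absurd (g.injective (h.trans h0.symm)) (by decide)
  rw [same (rep 4) _ ((hk' _).2 hC)] at hcards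
  obtain ⟨-, -, -, -, -, -, s2, s4, s6, s7, s8⟩ := rows
  have hv : ∀ t ∈ tys, typ (rep t) = t := by decide
  have e2 := card_eq_sum hM (r₀ := rep 2) (by decide) (by decide) {2, 6 + k.val} (fun t ht => by
      rw [hk, inOne_iff, hv t ht]; simp)
    (fun t ht => by have := k.val_lt; simp [tys] at ht ⊢; omega)
  have e4 := card_eq_sum hM (r₀ := rep 4) (by decide) (by decide)
    ((({2, 4, 6, 7, 8} : Finset ℕ)).filter fun t => ¬ (t = 2 ∨ t = 6 + k.val)) (fun t ht => by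
      rw [hk']
      have hst := sing_of_typ (rep t) (by rw [hv t ht]; simpa [tys] using ht)
      simp only [inTwo, inOne_iff, hv t ht]
      simp only [tys, List.mem_cons, List.not_mem_nil, or_false] at ht
      simp [hst.1, hst.2, ht])
    (fun t ht => by simpa [tys] using (Finset.mem_filter.1 ht).1)
  rw [e2, e4] at hcards
  have hk3 : k.val = 0 ∨ k.val = 1 ∨ k.val = 2 := by have := k.val_lt; omega
  rcases hk3 with hv | hv | hv <;>
    simp [hv, Finset.filter_insert, Finset.filter_singleton, s2, s4, s6, s7, s8] at hcards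

end Orb69

open Orb69 in
/-- The two orbits of a frame group on nonzero singular vectors. -/
theorem exists_orbit_class {M : Subgroup (Equiv.Perm (Fin 4096))} (hM : IsFrameGroup M) :
    ∃ k : ZMod 3, IsOrbitClass M k := by
  obtain ⟨k, hk⟩ := first_orbit hM
  have hk' := second_orbit hM hk
  refine ⟨k, ?_, ?_, stable_aux hM hk hk'⟩
  · intro a b ha hb
    obtain ⟨m, hm, rfl⟩ := mem_orb.1 ((hk a).2 ha)
    obtain ⟨m', hm', rfl⟩ := mem_orb.1 ((hk b).2 hb)
    exact ⟨m' * m⁻¹, M.mul_mem hm' (M.inv_mem hm), by simp⟩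
  · intro a b ha hb
    obtain ⟨m, hm, rfl⟩ := mem_orb.1 ((hk' a).2 ha)
    obtain ⟨m', hm', rfl⟩ := mem_orb.1 ((hk' b).2 hb)
    exact ⟨m' * m⁻¹, M.mul_mem hm' (M.inv_mem hm), by simp⟩

end CfsgLib.LargeFischer85
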