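import Cfsg.Agent.LargeFischer85.Frame
import Cfsg.Agent.LargeFischer85.Orbits

/-!
Large Fischer type: the orbits of `H/Q` on the singular vectors, as seen in `Q`.
-/

set_option autoImplicit false

namespace CfsgLib.LargeFischer85

section Frame

variable {K : Type*} [Group K] {q : V → ZMod 2} {act : K →* Equiv.Perm V} {Mb Cb : Subgroup K}
  {φ : Fin 4096 ≃ V}

/-- Every element of `H/Q` preserves the two orbits. -/
theorem inOne_frameHom (hadd : ∀ k v w, act k (v + w) = act k v + act k w)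
    (hqp : ∀ k v, q (act k v) = q v) (hf : IsFrame q act Mb Cb φ) {e : ZMod 3}
    (he : IsOrbitClass (Mb.map (frameHom φ act)) e) (k : K) (n : Fin 4096) :
    inOne e (frameHom φ act k n) ↔ inOne e n := by
  refine he.stable _ ?_ (fun m => ?_) ?_ n
  · rw [frameHom_apply, hf.map_zero, show act k 0 = 0 from map_zero (AddMonoidHom.mk' (act k) (hadd k)),
      ← hf.map_zero, Equiv.symm_apply_apply]
  · rw [hf.sing_iff, hf.sing_iff, frameHom_apply, Equiv.apply_symm_apply, hqp]
  · rintro _ ⟨y, hy, rfl⟩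
    refine ⟨k * y * k⁻¹, hf.normal_Mb.conj_mem y hy k, ?_⟩
    simp only [map_mul, map_inv]

theorem inTwo_frameHom (hadd : ∀ k v w, act k (v + w) = act k v + act k w)
    (hqp : ∀ k v, q (act k v) = q v) (hf : IsFrame q act Mb Cb φ) {e : ZMod 3}
    (he : IsOrbitClass (Mb.map (frameHom φ act)) e) (k : K) (n : Fin 4096) :
    inTwo e (frameHom φ act k n) ↔ inTwo e n := by
  rw [inTwo, inTwo, inOne_frameHom hadd hqp hf he, hf.sing_iff, hf.sing_iff, frameHom_apply,
    Equiv.apply_symm_apply, hqp]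
  refine and_congr_left fun _ => not_congr ?_
  have h0 : frameHom φ act k 0 = 0 := by
    rw [frameHom_apply, hf.map_zero, show act k 0 = 0 from map_zero (AddMonoidHom.mk' (act k) (hadd k)),
      ← hf.map_zero, Equiv.symm_apply_apply]
  rw [← frameHom_apply]
  exact ⟨fun h => (frameHom φ act k).injective (h.trans h0.symm), fun h => h ▸ h0⟩

end Frame

variable {G : Type*} [Group G] [Finite G] {z : G}
  {Q : Subgroup (Subgroup.centralizer ({z} : Set G))} [Q.Normal]
  {q : V → ZMod 2} {pr : ↥Q → V}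
  {act : (↥(Subgroup.centralizer ({z} : Set G)) ⧸ Q) →* Equiv.Perm V}
  {Mb Cb : Subgroup (↥(Subgroup.centralizer ({z} : Set G)) ⧸ Q)} {φ : Fin 4096 ≃ V}

/-- Moving vectors moves elements of `Q`. -/
theorem exists_conj_of_frame (hF : Cfsg.IsOfLargeFischerTypeAt z Q) (hA : IsAction z Q q pr act)
    {a b : ↥Q} (hb : pr b ≠ 0) {k : ↥(Subgroup.centralizer ({z} : Set G)) ⧸ Q}
    (hk : frameHom φ act k (φ.symm (pr a)) = φ.symm (pr b)) :
    ∃ h : Subgroup.centralizer ({z} : Set G), h * a * h⁻¹ = (b : Subgroup.centralizer ({z} : Set G)) := by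
  rw [frameHom_apply, Equiv.apply_symm_apply, EmbeddingLike.apply_eq_iff_eq] at hk
  obtain ⟨h, rfl⟩ := QuotientGroup.mk'_surjective Q k
  let a' : ↥Q := ⟨h * a * h⁻¹, Subgroup.Normal.conj_mem inferInstance _ a.2 h⟩
  have ha' : pr a' = pr b := (hA.act_pr h a a' rfl).symm.trans hk
  obtain ⟨c, hc⟩ := exists_conj_of_pr_eq hF hA ha' (ha' ▸ hb)
  refine ⟨(c : Subgroup.centralizer ({z} : Set G)) * h, ?_⟩
  rw [← congrArg Subtype.val hc]
  simp only [a', Subgroup.coe_mul, InvMemClass.coe_inv]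
  group

/-- An element of `H` keeps the class of the vector of an element of `Q`. -/
theorem inOne_conj (hA : IsAction z Q q pr act) (hf : IsFrame q act Mb Cb φ) {e : ZMod 3}
    (he : IsOrbitClass (Mb.map (frameHom φ act)) e) {a b : ↥Q}
    {h : Subgroup.centralizer ({z} : Set G)}
    (hh : h * a * h⁻¹ = (b : Subgroup.centralizer ({z} : Set G))) :
    inOne e (φ.symm (pr b)) ↔ inOne e (φ.symm (pr a)) := by
  rw [← inOne_frameHom hA.act_add hA.act_q hf he (QuotientGroup.mk' Q h) (φ.symm (pr a)),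
    frameHom_apply, Equiv.apply_symm_apply, hA.act_pr h a b hh.symm]

/-- The vector of an involution of `Q` other than `z` lies in one of the two orbits. -/
theorem inOne_or_inTwo (hA : IsAction z Q q pr act) (hf : IsFrame q act Mb Cb φ) (e : ZMod 3)
    {x : ↥Q} (h2 : orderOf (x : Subgroup.centralizer ({z} : Set G)) = 2)
    (hz : ((x : Subgroup.centralizer ({z} : Set G)) : G) ≠ z) :
    inOne e (φ.symm (pr x)) ∨ inTwo e (φ.symm (pr x)) := by
  obtain ⟨h0, hq⟩ := (involution_iff hA x).1 ⟨h2, hz⟩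
  refine (em _).imp_right fun hn => ⟨fun e0 => h0 ?_, ?_, hn⟩
  · rw [← Equiv.apply_symm_apply φ (pr x), e0, hf.map_zero]
  · rw [hf.sing_iff, Equiv.apply_symm_apply]
    exact hq

end CfsgLib.LargeFischer85
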