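import Cfsg.Agent.LargeFischer85.Defs

/-!
Large Fischer type: the predicate of a frame, coordinates on the module in which the action of the
index-two part contains the monomial group.
-/

set_option autoImplicit false

namespace CfsgLib.LargeFischer85

/-- An action on `V` read on the numbers below `4096`. -/
def frameHom {K : Type*} [Group K] (φ : Fin 4096 ≃ V) (act : K →* Equiv.Perm V) :
    K →* Equiv.Perm (Fin 4096) where
  toFun k := φ.trans ((act k).trans φ.symm)
  map_one' := Equiv.ext fun n => by simp
  map_mul' a b := Equiv.ext fun n => by simp [map_mul]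

theorem frameHom_apply {K : Type*} [Group K] (φ : Fin 4096 ≃ V) (act : K →* Equiv.Perm V)
    (k : K) (n : Fin 4096) : frameHom φ act k n = φ.symm (act k (φ n)) := rfl

theorem frameHom_injective {K : Type*} [Group K] (φ : Fin 4096 ≃ V) {act : K →* Equiv.Perm V}
    (h : Function.Injective act) : Function.Injective (frameHom φ act) := fun a b e =>
  h (Equiv.ext fun v => by
    obtain ⟨n, rfl⟩ := φ.surjective v
    have := Equiv.ext_iff.1 e n
    rw [frameHom_apply, frameHom_apply] at this
    exact φ.symm.injective this)

/-- A frame: coordinates in which `Mb` acts as a frame group and `Cb` as the scalars. -/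
structure IsFrame {K : Type*} [Group K] (q : V → ZMod 2) (act : K →* Equiv.Perm V)
    (Mb Cb : Subgroup K) (φ : Fin 4096 ≃ V) : Prop where
  normal_Mb : Mb.Normal
  normal_Cb : Cb.Normal
  index_Mb : Mb.index = 2
  card_Cb : Nat.card Cb = 3
  le_Mb : Cb ≤ Mb
  central : ∀ c ∈ Cb, ∀ m ∈ Mb, c * m = m * c
  map_zero : φ 0 = 0
  map_vadd : ∀ a b, φ (vadd a b) = φ a + φ b
  sing_iff : ∀ n, sing n ↔ q (φ n) = 0
  scalar : ∃ c ∈ Cb, ∀ n, frameHom φ act c n = om n
  group : IsFrameGroup (Mb.map (frameHom φ act))

end CfsgLib.LargeFischer85
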