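import Cfsg.Agent.LargeFischer85.Monomial
import Cfsg.Agent.LargeFischer85.Setup

/-!
Large Fischer type: the frame exists.
-/

set_option autoImplicit false

namespace CfsgLib.LargeFischer85

open Cfsg CfsgLib.U43Mult IsTriAction

theorem orth_iff_cast (m n : Fin 4096) :
    orth m n ↔ (wt (vadd m n) : ZMod 2) + (wt m : ZMod 2) + (wt n : ZMod 2) = 0 := by
  rw [orth, ← Nat.even_iff, ← ZMod.natCast_eq_zero_iff_even]
  push_cast
  exact Iff.rfl

/-- The frame of an abstract faithful action of a `3.U4(3).2`. -/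
theorem exists_frame_of {K : Type*} [Group K] [Finite K] {q : V → ZMod 2} (hq : IsQuad q)
    (act : K →* Equiv.Perm V) (hadd : ∀ k v w, act k (v + w) = act k v + act k w)
    (hqp : ∀ k v, q (act k v) = q v) (hinj : Function.Injective act) (Mb Cb : Subgroup K)
    [hMn : Mb.Normal] [hCn : Cb.Normal] (hle : Cb ≤ Mb) (hC : Nat.card Cb = 3) (hidx : Mb.index = 2)
    (e : ↥Mb ⧸ Cb.subgroupOf Mb ≃* G9) : ∃ φ, IsFrame q act Mb Cb φ := by
  classical
  have : Fact (Nat.Prime 3) := ⟨Nat.prime_three⟩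
  let π : ↥Mb →* G9 := e.toMonoidHom.comp (QuotientGroup.mk' (Cb.subgroupOf Mb))
  have hs : Function.Surjective π := e.surjective.comp (QuotientGroup.mk'_surjective _)
  obtain ⟨⟨c0, hc0⟩, hc1⟩ : ∃ x : Cb, x ≠ 1 := by
    have : Nontrivial Cb := Finite.one_lt_card_iff_nontrivial.1 (by rw [hC]; norm_num)
    exact exists_ne 1
  let c : ↥Mb := ⟨c0, hle hc0⟩
  have hπ1 : ∀ b : ↥Mb, π b = 1 ↔ (b : K) ∈ Cb := fun b => by
    simp [π, Subgroup.mem_subgroupOf]
  have h3 : c ^ 3 = 1 := Subtype.ext (by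
    show c0 ^ 3 = 1
    have e3 := pow_card_eq_one' (x := (⟨c0, hc0⟩ : Cb))
    rw [hC] at e3
    exact congrArg Subtype.val e3)
  have hne : c ≠ 1 := fun e => hc1 (Subtype.ext (congrArg (fun x : ↥Mb => (x : K)) e))
  have hker : ∀ b, π b = 1 → ∃ k, b = cp c k := by
    intro b hb
    obtain ⟨n, hn⟩ := mem_powers_of_prime_card (G := Cb) hC (g' := ⟨b, (hπ1 b).1 hb⟩) hc1
    refine ⟨(n : ZMod 3), Subtype.ext ?_⟩
    have e1 : c0 ^ n = (b : K) := congrArg Subtype.val hn
    have e2 : c ^ n = cp c (n : ZMod 3) := by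
      rw [cp, ZMod.val_natCast, ← pow_eq_pow_mod _ h3]
    rw [← e2]
    exact e1.symm
  obtain ⟨ℓ, hℓ⟩ := exists_lift hs h3 hne ((hπ1 c).2 hc0) hker
  let a : ↥Mb →* Equiv.Perm V := act.comp Mb.subtype
  have ha : Function.Injective a := hinj.comp Subtype.val_injective
  have htri : IsTriModule c a := fixed_free hℓ ha fun b => hadd b
  rcases tri_dichotomy hℓ htri ⟨fun _ => 1, fun e => one_ne_zero (congrFun e (.inl 0))⟩ card_V.le with
    ⟨d, hd, htriv⟩ | ⟨χ, s, hsix⟩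
  · exact absurd (by rw [show d = 1 from ha ((Equiv.ext htriv).trans (map_one a).symm), map_one]) hd
  choose ε hne0 hw using hsix.mem
  have hL : IsLines π c ℓ a χ s ε := ⟨hℓ, htri, hsix, ha, hne0, hw⟩
  have hqa : ∀ b x, q (a b x) = q x := fun b => hqp b
  let φ : Fin 4096 ≃ V := Equiv.ofBijective _ hL.coord_bijective
  have hφ : ∀ n, φ n = coordMap a c ε n := fun n => rfl
  have hev : ∀ (b : ↥Mb) (m n : Fin 4096), a b (φ n) = φ m → frameHom φ act (b : K) n = m := by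
    intro b m n e
    rw [frameHom_apply, show act (b : K) (φ n) = φ m from e, Equiv.symm_apply_apply]
  have hom : ∀ (b : ↥Mb) n, a b (φ n) = φ (frameHom φ act (b : K) n) := fun b n => by
    rw [frameHom_apply, Equiv.apply_symm_apply]
    rfl
  have hqφ : ∀ n, q (φ n) = (wt n : ZMod 2) := fun n => hL.coord_q hq hqa n
  have horth : ∀ m n, orth m n ↔ pol q (φ m) (φ n) = 0 := by
    intro m n
    rw [orth_iff_cast, pol, hφ, hφ, ← hL.coord_vadd, ← hφ, ← hφ, ← hφ, hqφ, hqφ, hqφ,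
      CharTwo.sub_eq_add, CharTwo.sub_eq_add]
  refine ⟨φ, hMn, hCn, hidx, hC, hle, ?_, IsLines.coord_zero, hL.coord_vadd,
    fun n => by rw [sing_iff_cast, hqφ], ⟨c0, hc0, fun n => hev c _ n (hL.coord_om n)⟩, ?_⟩
  · intro x hx m hm
    have hk : π ⟨x, hle hx⟩ = 1 := (hπ1 _).2 hx
    obtain ⟨k, hk⟩ := hker _ hk
    have := ((hℓ.central ⟨m, hm⟩).pow_left k.val).eq
    rw [← cp, ← hk] at this
    exact congrArg Subtype.val this
  refine ⟨?_, ?_, ?_, ?_, ?_, ?_⟩
  · rw [Subgroup.card_map_of_injective (frameHom_injective φ hinj), hL.card_cover]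
  · rintro _ ⟨k, hk, rfl⟩
    refine hev ⟨k, hk⟩ 0 0 ?_
    rw [hφ, IsLines.coord_zero]
    exact map_zero_of_add htri _
  · rintro _ ⟨k, hk, rfl⟩ n
    rw [sing_iff_cast, sing_iff_cast, ← hqφ, ← hqφ, ← hom ⟨k, hk⟩, hqa]
  · rintro _ ⟨k, hk, rfl⟩ x y
    have hadd' := htri.add ⟨k, hk⟩
    have homg : ∀ n, φ (om n) = a c (φ n) := fun n => (hL.coord_om n).symm
    have key : ∀ u w, pol q (φ (frameHom φ act k u)) (φ (frameHom φ act k w)) = pol q (φ u) (φ w) := by
      intro u w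
      rw [← hom ⟨k, hk⟩, ← hom ⟨k, hk⟩, pol_inv hadd' (hqa _)]
    have hcomm : frameHom φ act k (om x) = om (frameHom φ act k x) := φ.injective (by
      rw [← hom ⟨k, hk⟩, homg, homg, ← hom ⟨k, hk⟩, ← Equiv.Perm.mul_apply, ← map_mul,
        ← (hℓ.central _).eq, map_mul, Equiv.Perm.mul_apply])
    rw [herm, herm, horth, horth, horth, horth, ← hcomm, key, key]
  · intro σ hσ δ hδ
    obtain ⟨b, hb⟩ := hL.exists_mon σ hσ δ hδ
    exact ⟨_, ⟨b, b.2, rfl⟩, fun n => hev b _ n (hL.coord_mon σ δ hb n)⟩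
  · obtain ⟨b, i, hbi⟩ := hL.exists_moving
    refine ⟨_, ⟨b, b.2, rfl⟩, mkN (Pi.single i 1), wt_one_of_line i 0, fun hw1 => ?_⟩
    obtain ⟨j, d, hjd⟩ := line_of_wt_one _ hw1
    refine hbi j ?_
    have hline : ∀ (l : Fin 6) (r : ℕ), r < 4 →
        φ (mkN (Pi.single l r)) = lineVec a c ε l r := by
      intro l r hr
      rw [hφ, coordMap, Finset.sum_eq_single l]
      · rw [dig_mkN, Pi.single_eq_same]
        intro m
        by_cases e : m = l <;> simp [e, hr]
      · intro m _ hm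
        rw [dig_mkN, Pi.single_eq_of_ne hm]
        · simp [lineVec]
        · intro m
          by_cases e : m = l <;> simp [e, hr]
      · simp
    have e := hom b (mkN (Pi.single i 1))
    have hjd' : frameHom φ act (b : K) (mkN (Pi.single i 1)) = mkN (Pi.single j (d.val + 1)) := hjd
    rw [hline i 1 (by norm_num), hjd', hline j _ (by omega)] at e
    rw [show ε i = lineVec a c ε i 1 from rfl, e]
    exact hL.line_weight j _

/-- A frame exists. -/
theorem exists_frame {G : Type*} [Group G] [Finite G] {z : G}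
    {Q : Subgroup (Subgroup.centralizer ({z} : Set G))} [Q.Normal]
    (hF : IsOfLargeFischerTypeAt z Q) {q : V → ZMod 2} {pr : ↥Q → V}
    {act : (↥(Subgroup.centralizer ({z} : Set G)) ⧸ Q) →* Equiv.Perm V}
    (hA : IsAction z Q q pr act) :
    ∃ (Mb Cb : Subgroup (↥(Subgroup.centralizer ({z} : Set G)) ⧸ Q)) (φ : Fin 4096 ≃ V),
      IsFrame q act Mb Cb φ := by
  obtain ⟨Mb, Cb, hM, hC, hle, hc, hidx, ⟨e⟩⟩ := exists_sections hF
  have := hM
  have := hC
  exact ⟨Mb, Cb, exists_frame_of hA.quad act hA.act_add hA.act_q hA.act_inj Mb Cb hle hc hidx e⟩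

end CfsgLib.LargeFischer85
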