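import Cfsg.Agent.LargeFischer85.Defs

/-!
Large Fischer type: digits of the numbers below `4096`.
-/

set_option autoImplicit false

namespace CfsgLib.LargeFischer85

theorem dig_lt (n i : ℕ) : dig n i < 4 := Nat.mod_lt _ (by norm_num)

theorem mkN_dig (n : Fin 4096) : (mkN fun i => dig n.val i.val) = n := by
  have h := n.isLt
  refine Fin.ext ?_
  simp only [mkN, dig, Fin.isValue, Fin.coe_ofNat_eq_mod,
    Nat.reduceMod, Nat.reducePow]
  omega

theorem dig_mkN {f : Fin 6 → ℕ} (hf : ∀ i, f i < 4) (i : Fin 6) :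
    dig (mkN f).val i.val = f i := by
  have h0 := hf 0
  have h1 := hf 1
  have h2 := hf 2
  have h3 := hf 3
  have h4 := hf 4
  have h5 := hf 5
  have e : (mkN f).val =
      f 0 + 4 * f 1 + 16 * f 2 + 64 * f 3 + 256 * f 4 + 1024 * f 5 := Nat.mod_eq_of_lt (by omega)
  rw [dig, e]
  fin_cases i <;> simp only [Nat.reducePow, Fin.reduceFinMk, Fin.isValue] <;> omega

theorem dig_xor (a b i : ℕ) : dig (a ^^^ b) i = dig a i ^^^ dig b i := by
  refine Nat.eq_of_testBit_eq fun j => ?_
  have h4 : (4 : ℕ) ^ i = 2 ^ (2 * i) := by rw [pow_mul]; norm_num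
  simp only [dig, h4]
  simp only [show (4 : ℕ) = 2 ^ 2 by norm_num, Nat.testBit_mod_two_pow, Nat.testBit_div_two_pow,
    Nat.testBit_xor]
  by_cases h : j < 2 <;> simp [h]

theorem dig_vadd (a b : Fin 4096) (i : ℕ) :
    dig (vadd a b).val i = dig a.val i ^^^ dig b.val i := by
  rw [← dig_xor]
  show dig ((a.val ^^^ b.val) % 4096) i = _
  rw [Nat.mod_eq_of_lt (Nat.xor_lt_two_pow (n := 12) a.isLt b.isLt)]

theorem scal_lt (k : ZMod 3) (d : ℕ) : scal k d < 4 := by
  unfold scal
  split <;> omega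

theorem eq_of_dig {a b : Fin 4096} (h : ∀ i : Fin 6, dig a.val i.val = dig b.val i.val) : a = b := by
  rw [← mkN_dig a, ← mkN_dig b]
  exact congrArg mkN (funext h)

theorem cast_wt (n : Fin 4096) :
    (wt n : ZMod 2) = ∑ i : Fin 6, if dig n.val i.val = 0 then 0 else 1 := by
  simp only [wt, Fin.sum_univ_six, show List.range 6 = [0, 1, 2, 3, 4, 5] from rfl, List.foldr, Nat.cast_add,
    Nat.cast_ite, Nat.cast_zero, Nat.cast_one, add_zero, add_assoc, Fin.isValue, Fin.coe_ofNat_eq_mod, Nat.reduceMod]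

theorem sing_iff_cast (n : Fin 4096) : sing n ↔ (wt n : ZMod 2) = 0 := by
  rw [sing, ← Nat.even_iff, ZMod.natCast_eq_zero_iff_even]

theorem wt_one_of_line : ∀ (i : Fin 6) (d : Fin 3),
    wt (mkN (Pi.single i (d.val + 1))) = 1 := by decide +kernel

/-- The eighteen numbers with one nonzero digit. -/
def lineList : List ℕ := (List.range 18).map fun j => (j % 3 + 1) * 4 ^ (j / 3)

/-- The weight on numbers. -/
def wtNat (n : ℕ) : ℕ := (List.range 6).foldr (fun i a => (if dig n i = 0 then 0 else 1) + a) 0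

theorem line_check : (List.range 4096).all (fun v => wtNat v != 1 || lineList.contains v) = true := by
  decide +kernel

theorem line_val : ∀ j : Fin 18, ∃ (i : Fin 6) (d : Fin 3),
    (mkN (Pi.single i (d.val + 1))).val = (j.val % 3 + 1) * 4 ^ (j.val / 3) := by decide +kernel

theorem line_of_wt_one (n : Fin 4096) (h : wt n = 1) :
    ∃ (i : Fin 6) (d : Fin 3), n = mkN (Pi.single i (d.val + 1)) := by
  have h1 := List.all_eq_true.1 line_check n.val (List.mem_range.2 n.isLt)
  rw [show wtNat n.val = 1 from h] at h1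
  simp only [bne_self_eq_false, Bool.false_or, List.contains_iff_mem, lineList, List.mem_map,
    List.mem_range] at h1
  obtain ⟨j, hj, e⟩ := h1
  obtain ⟨i, d, hid⟩ := line_val ⟨j, hj⟩
  exact ⟨i, d, Fin.ext (e.symm.trans hid.symm)⟩

end CfsgLib.LargeFischer85
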