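import Cfsg.Agent.LargeFischer85.Defs

/-!
Large Fischer type: the quadratic form on sums of orthogonal vectors.
-/

set_option autoImplicit false

namespace CfsgLib.LargeFischer85

variable {q : V → ZMod 2}

theorem pol_comm (a b : V) : pol q a b = pol q b a := by
  rw [pol, pol, add_comm a b]
  ring

theorem pol_zero_left (hq : IsQuad q) (b : V) : pol q 0 b = 0 := by
  simp [pol, hq.zero]

theorem pol_zero_right (hq : IsQuad q) (a : V) : pol q a 0 = 0 := by
  rw [pol_comm, pol_zero_left hq]

theorem q_add (a b : V) : q (a + b) = q a + q b + pol q a b := by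
  rw [pol]
  ring

theorem pol_add_right (hq : IsQuad q) (a b b' : V) :
    pol q a (b + b') = pol q a b + pol q a b' := by
  rw [pol_comm, hq.add_left, pol_comm, pol_comm b']

theorem pol_sum_right (hq : IsQuad q) (a : V) {ι : Type*} (S : Finset ι) (x : ι → V) :
    pol q a (∑ i ∈ S, x i) = ∑ i ∈ S, pol q a (x i) :=
  map_sum (AddMonoidHom.mk' (pol q a) (pol_add_right hq a)) x S

theorem q_sum (hq : IsQuad q) {ι : Type*} (S : Finset ι) (x : ι → V)
    (h : ∀ i j, i ≠ j → pol q (x i) (x j) = 0) : q (∑ i ∈ S, x i) = ∑ i ∈ S, q (x i) := by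
  classical
  induction S using Finset.induction_on with
  | empty => simp [hq.zero]
  | insert i S hi ih =>
    rw [Finset.sum_insert hi, Finset.sum_insert hi, q_add (q := q), ih, pol_sum_right hq,
      Finset.sum_eq_zero fun j hj => h i j fun e => hi (e ▸ hj), add_zero]

theorem pol_inv {f : V → V} (hadd : ∀ x y, f (x + y) = f x + f y) (hf : ∀ x, q (f x) = q x)
    (a b : V) : pol q (f a) (f b) = pol q a b := by
  rw [pol, pol, ← hadd, hf, hf, hf]

end CfsgLib.LargeFischer85
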