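import Cfsg.Agent.LargeFischer85.Fixed
import Cfsg.Agent.LargeFischer85.Digits
import Cfsg.Agent.LargeFischer85.Quad

/-!
Large Fischer type: the coordinates given by six weight lines.
-/

set_option autoImplicit false

namespace CfsgLib.LargeFischer85

open CfsgLib.U43Mult IsTriAction

variable {B : Type*} [Group B] {π : B →* G9} {c : B} {ℓ : U4 → B} {a : B →* Equiv.Perm V}
variable {χ : Fin 6 → U4} {s : SL9 →* Equiv.Perm (Fin 6)}

/-- The hypotheses for coordinates, with a chosen vector on each line. -/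
structure IsLines (π : B →* G9) (c : B) (ℓ : U4 → B) (a : B →* Equiv.Perm V) (χ : Fin 6 → U4)
    (s : SL9 →* Equiv.Perm (Fin 6)) (ε : Fin 6 → V) : Prop where
  lift : IsLift π c ℓ
  tri : IsTriModule c a
  six : IsSixWeights π c ℓ a χ s
  inj : Function.Injective a
  ne : ∀ i, ε i ≠ 0
  weight : ∀ i, HasWeight (a c) (fun u => a (ℓ u)) (χ i) (ε i)

/-- A vector of a line by its digit. -/
def lineVec (a : B →* Equiv.Perm V) (c : B) (ε : Fin 6 → V) (i : Fin 6) (d : ℕ) : V :=
  if d = 0 then 0 else pw (a c) ((d - 1 : ℕ) : ZMod 3) (ε i)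

/-- The vector with given digits. -/
def coordMap (a : B →* Equiv.Perm V) (c : B) (ε : Fin 6 → V) (n : Fin 4096) : V :=
  ∑ i : Fin 6, lineVec a c ε i (dig n.val i.val)

namespace IsLines

variable {ε : Fin 6 → V} (h : IsLines π c ℓ a χ s ε)
include h

theorem act : IsTriAction (a c) fun u => a (ℓ u) := tri_act h.lift h.tri

theorem line_weight (i : Fin 6) (d : ℕ) :
    HasWeight (a c) (fun u => a (ℓ u)) (χ i) (lineVec a c ε i d) := by
  unfold lineVec
  split
  · exact h.act.weight_zero _
  · exact h.act.weight_pw (h.weight i) _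

theorem line_ne {i : Fin 6} {d : ℕ} (hd : d ≠ 0) : lineVec a c ε i d ≠ 0 := by
  rw [lineVec, if_neg hd]
  intro e
  have := congrArg (pw (a c) (-((d - 1 : ℕ) : ZMod 3))) e
  rw [← h.act.pw_add, neg_add_cancel, pw_zero, h.act.pw_map_zero] at this
  exact h.ne i this

theorem line_inj {i : Fin 6} {d d' : ℕ} (hd : d < 4) (hd' : d' < 4)
    (e : lineVec a c ε i d = lineVec a c ε i d') : d = d' := by
  by_cases h0 : d = 0
  · by_contra hne
    rw [h0] at e
    exact h.line_ne (fun h1 => hne (h0.trans h1.symm)) e.symm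
  · by_cases h0' : d' = 0
    · rw [h0'] at e
      exact absurd e (h.line_ne h0)
    · rw [lineVec, lineVec, if_neg h0, if_neg h0'] at e
      have := congrArg ZMod.val (h.act.pw_inj (h.ne i) e)
      rw [ZMod.val_natCast, ZMod.val_natCast] at this
      omega

theorem line_xor (i : Fin 6) {d d' : ℕ} (hd : d < 4) (hd' : d' < 4) :
    lineVec a c ε i (d ^^^ d') = lineVec a c ε i d + lineVec a c ε i d' := by
  have e2 : pw (a c) 2 (ε i) = pw (a c) 1 (ε i) + ε i := h.act.om_sq (ε i)
  have h2 := h.tri.two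
  interval_cases d <;> interval_cases d' <;>
    simp [lineVec, e2, pw_zero, h2] <;>
    (funext t
     simp only [Pi.add_apply]
     generalize ε i t = p
     generalize pw (a c) 1 (ε i) t = r
     revert p r
     decide)

theorem line_scal (i : Fin 6) (d : ℕ) (k : ZMod 3) :
    lineVec a c ε i (scal k d) = pw (a c) k (lineVec a c ε i d) := by
  by_cases h0 : d = 0
  · simp [lineVec, scal, h0, h.act.pw_map_zero]
  · simp only [lineVec, scal, if_neg h0, Nat.succ_ne_zero, ↓reduceIte, Nat.add_sub_cancel]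
    rw [← h.act.pw_add]
    congr 1
    rw [ZMod.natCast_mod, Nat.cast_add, ZMod.natCast_val, ZMod.cast_id', id_eq, add_comm]

theorem line_total (i : Fin 6) {x : V} (hx : HasWeight (a c) (fun u => a (ℓ u)) (χ i) x) :
    ∃ d, d < 4 ∧ x = lineVec a c ε i d := by
  let f : Fin 4 → space (a c) (fun u => a (ℓ u)) (χ i) :=
    fun d => ⟨lineVec a c ε i d.val, h.line_weight i d.val⟩
  have hf : Function.Bijective f := (Nat.bijective_iff_injective_and_card _).2
    ⟨fun d d' e => Fin.ext (h.line_inj d.isLt d'.isLt (congrArg Subtype.val e)),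
      by rw [h.six.space_card i, Nat.card_eq_fintype_card, Fintype.card_fin]⟩
  obtain ⟨d, hd⟩ := hf.2 ⟨x, hx⟩
  exact ⟨d.val, d.isLt, (congrArg Subtype.val hd).symm⟩

omit h in
theorem coord_zero : coordMap a c ε 0 = 0 := by
  refine Finset.sum_eq_zero fun i _ => ?_
  simp [lineVec, dig]

theorem coord_vadd (m n : Fin 4096) :
    coordMap a c ε (vadd m n) = coordMap a c ε m + coordMap a c ε n := by
  simp only [coordMap, ← Finset.sum_add_distrib]
  exact Finset.sum_congr rfl fun i _ => by rw [dig_vadd, h.line_xor i (dig_lt _ _) (dig_lt _ _)]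

theorem proj_coord (n : Fin 4096) (j : Fin 6) :
    proj (a c) (fun u => a (ℓ u)) (χ j) (coordMap a c ε n) = lineVec a c ε j (dig n.val j.val) := by
  let P : V →+ V := AddMonoidHom.mk' (proj (a c) (fun u => a (ℓ u)) (χ j)) (h.act.proj_add _)
  show P _ = _
  rw [coordMap, map_sum, Finset.sum_eq_single j]
  · exact (h.act.proj_of_weight (h.line_weight j _)).trans (if_pos rfl)
  · intro l _ hl
    exact (h.act.proj_of_weight (h.line_weight l _)).trans (if_neg fun e => hl (h.six.inj e.symm))
  · simp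

theorem coord_bijective : Function.Bijective (coordMap a c ε) :=
  (Nat.bijective_iff_injective_and_card _).2 ⟨fun m n e => eq_of_dig fun i =>
    h.line_inj (dig_lt _ _) (dig_lt _ _) (by rw [← h.proj_coord, e, h.proj_coord]),
    by rw [card_V, Nat.card_eq_fintype_card, Fintype.card_fin]⟩

/-- A monomial element acts as the monomial map. -/
theorem coord_mon {b : B} (σ : Equiv.Perm (Fin 6)) (δ : Fin 6 → ZMod 3)
    (hb : ∀ i, a b (ε i) = pw (a c) (δ i) (ε (σ i))) (n : Fin 4096) :
    a b (coordMap a c ε n) = coordMap a c ε (monF σ δ n) := by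
  have hl : ∀ i, a b (lineVec a c ε i (dig n.val i.val)) =
      lineVec a c ε (σ i) (scal (δ i) (dig n.val i.val)) := by
    intro i
    rw [h.line_scal (σ i)]
    unfold lineVec
    split
    · rw [h.act.pw_map_zero]
      exact map_zero_of_add h.tri b
    · rw [act_pw_any h.lift, hb, ← h.act.pw_add, ← h.act.pw_add, add_comm]
  show AddMonoidHom.mk' (a b) (h.tri.add b) _ = _
  rw [coordMap, map_sum, coordMap]
  refine Fintype.sum_equiv σ _ _ fun i => ?_
  rw [monF, dig_mkN (fun j => scal_lt _ _), Equiv.symm_apply_apply]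
  exact hl i

theorem coord_om (n : Fin 4096) : a c (coordMap a c ε n) = coordMap a c ε (om n) := by
  rw [show om n = monF 1 (fun _ => 1) n from rfl]
  exact h.coord_mon 1 _ (fun i => rfl) n

section Form

variable {q : V → ZMod 2} (hq : IsQuad q) (hqp : ∀ b x, q (a b x) = q x)
include hq hqp

theorem orth_spaces {i j : Fin 6} (hij : i ≠ j) {x y : V}
    (hx : HasWeight (a c) (fun u => a (ℓ u)) (χ i) x)
    (hy : HasWeight (a c) (fun u => a (ℓ u)) (χ j) y) : pol q x y = 0 := by
  obtain ⟨l, hl⟩ := form1_separates (χ i - χ j) (sub_ne_zero.2 fun e => hij (h.six.inj e))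
  set d := form1 (χ i - χ j) (unit4 l) with hd
  have key : ∀ x', HasWeight (a c) (fun u => a (ℓ u)) (χ i) x' → pol q (pw (a c) d x') y = pol q x' y := by
    intro x' hx'
    have e1 := pol_inv (h.tri.add (ℓ (unit4 l))) (hqp (ℓ (unit4 l))) x' y
    have f1 := hx' (unit4 l)
    have f2 := hy (unit4 l)
    dsimp only at f1 f2
    rw [f1, f2] at e1
    have e2 := pol_inv (h.tri.add (cp c (-form1 (χ j) (unit4 l)))) (hqp (cp c (-form1 (χ j) (unit4 l))))
      (pw (a c) (form1 (χ i) (unit4 l)) x') (pw (a c) (form1 (χ j) (unit4 l)) y)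
    rw [act_cp, act_cp, ← h.act.pw_add, ← h.act.pw_add, neg_add_cancel, pw_zero, e1] at e2
    rwa [hd, form1_sub, sub_eq_neg_add]
  have k1 : ∀ x', HasWeight (a c) (fun u => a (ℓ u)) (χ i) x' → pol q (pw (a c) 1 x') y = pol q x' y := by
    intro x' hx'
    rcases (by generalize d = r at hl; revert hl; revert r; decide : d = 1 ∨ d = 2) with hd1 | hd1
    · rw [← hd1]
      exact key x' hx'
    · have := key _ (h.act.weight_pw hx' 1)
      rw [hd1, ← h.act.pw_add, show (2 : ZMod 3) + 1 = 0 by decide, pw_zero] at this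
      exact this.symm
  have e := k1 (pw (a c) 1 x) (h.act.weight_pw hx 1)
  rw [show pw (a c) 1 (pw (a c) 1 x) = pw (a c) 1 x + x from h.act.om_sq x, hq.add_left, k1 x hx] at e
  exact left_eq_add.1 e.symm

theorem aniso (i : Fin 6) (d : ℕ) (hd : d ≠ 0) : q (lineVec a c ε i d) = 1 := by
  rw [lineVec, if_neg hd, ← act_cp, hqp]
  by_contra hne
  have h0 : q (ε i) = 0 := by
    generalize q (ε i) = r at hne
    revert hne; revert r; decide
  have hz : ∀ k, q (pw (a c) k (ε i)) = 0 := fun k => by rw [← act_cp, hqp, h0]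
  have hzero : ∀ d, q (lineVec a c ε i d) = 0 := fun d => by
    unfold lineVec
    split
    · exact hq.zero
    · exact hz _
  obtain ⟨v, hv⟩ := hq.nondeg (ε i) (h.ne i)
  obtain ⟨n, rfl⟩ := h.coord_bijective.2 v
  refine hv ?_
  rw [coordMap, pol_sum_right hq]
  refine Finset.sum_eq_zero fun j _ => ?_
  by_cases hji : i = j
  · subst hji
    have e1 : lineVec a c ε i 1 = ε i := rfl
    have e2 := h.line_xor i (show 1 < 4 by norm_num) (dig_lt n.val i.val)
    rw [e1] at e2
    rw [pol, ← e2, hzero, hzero, h0, sub_zero, sub_zero]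
  · exact h.orth_spaces hq hqp hji (h.weight i) (h.line_weight j _)

theorem coord_q (n : Fin 4096) : q (coordMap a c ε n) = (wt n : ZMod 2) := by
  rw [coordMap, q_sum hq Finset.univ _ (fun i j hij => h.orth_spaces hq hqp hij (h.line_weight i _)
    (h.line_weight j _)), cast_wt]
  refine Finset.sum_congr rfl fun i _ => ?_
  by_cases h0 : dig n.val i.val = 0
  · rw [if_pos h0, h0]
    exact hq.zero
  · rw [if_neg h0, h.aniso hq hqp i _ h0]

end Form

end IsLines

end CfsgLib.LargeFischer85
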