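import Mathlib

/-!
Large Fischer type: the six-dimensional unitary space over the field with four elements on the
numbers below `4096`, and the interfaces between the parts of the development.

Digit `i` of a number is the coordinate at the `i`-th frame vector, with `2` a primitive cube root
of unity; the sum of vectors is the bitwise exclusive or.
-/

set_option autoImplicit false

namespace CfsgLib.LargeFischer85

/-- Digit `i` in base four. -/
def dig (n i : ℕ) : ℕ := n / 4 ^ i % 4

/-- The number with six given digits. -/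
def mkN (f : Fin 6 → ℕ) : Fin 4096 :=
  ⟨(f 0 + 4 * f 1 + 16 * f 2 + 64 * f 3 + 256 * f 4 + 1024 * f 5) % 4096,
    Nat.mod_lt _ (by norm_num)⟩

/-- The number of nonzero digits. -/
def wt (n : Fin 4096) : ℕ :=
  (List.range 6).foldr (fun i a => (if dig n.val i = 0 then 0 else 1) + a) 0

/-- Evenness of the weight: the quadratic form vanishes. -/
def sing (n : Fin 4096) : Prop := wt n % 2 = 0

instance decSing : DecidablePred sing := fun n => inferInstanceAs (Decidable (wt n % 2 = 0))

/-- The bitwise sum. -/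
def vadd (a b : Fin 4096) : Fin 4096 := ⟨(a.val ^^^ b.val) % 4096, Nat.mod_lt _ (by norm_num)⟩

/-- Multiplication of one coordinate by the `k`-th power of the cube root of unity. -/
def scal (k : ZMod 3) (d : ℕ) : ℕ := if d = 0 then 0 else (d - 1 + k.val) % 3 + 1

/-- The scalar multiplication by the cube root of unity. -/
def om (n : Fin 4096) : Fin 4096 := mkN fun i => scal 1 (dig n.val i.val)

/-- The polar form vanishes. -/
def orth (a b : Fin 4096) : Prop := (wt (vadd a b) + wt a + wt b) % 2 = 0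

/-- The hermitian form vanishes. -/
def herm (a b : Fin 4096) : Prop := orth a b ∧ orth (om a) b

instance decOrth (a b : Fin 4096) : Decidable (orth a b) :=
  inferInstanceAs (Decidable ((wt (vadd a b) + wt a + wt b) % 2 = 0))

instance decHerm (a b : Fin 4096) : Decidable (herm a b) :=
  inferInstanceAs (Decidable (orth a b ∧ orth (om a) b))

/-- The monomial map: coordinate `i` goes to `σ i` times the `ε i`-th power of the root. -/
def monF (σ : Equiv.Perm (Fin 6)) (ε : Fin 6 → ZMod 3) (n : Fin 4096) : Fin 4096 :=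
  mkN fun j => scal (ε (σ.symm j)) (dig n.val (σ.symm j).val)

/-- The product class of a vector all of whose digits are nonzero. -/
def cls (n : Fin 4096) : ZMod 3 := ∑ i : Fin 6, ((dig n.val i.val + 2 : ℕ) : ZMod 3)

/-- The first orbit on singular vectors, for the class `k`. -/
def inOne (k : ZMod 3) (n : Fin 4096) : Prop := wt n = 2 ∨ (wt n = 6 ∧ cls n = k)

/-- The second orbit on singular vectors. -/
def inTwo (k : ZMod 3) (n : Fin 4096) : Prop := n ≠ 0 ∧ sing n ∧ ¬ inOne k n

instance decOne (k : ZMod 3) : DecidablePred (inOne k) :=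
  fun n => inferInstanceAs (Decidable (wt n = 2 ∨ (wt n = 6 ∧ cls n = k)))

instance decTwo (k : ZMod 3) : DecidablePred (inTwo k) :=
  fun n => inferInstanceAs (Decidable (n ≠ 0 ∧ sing n ∧ ¬ inOne k n))

/-- What is known on the image of the normal subgroup of index two of `H/Q`. -/
structure IsFrameGroup (M : Subgroup (Equiv.Perm (Fin 4096))) : Prop where
  card : Nat.card M = 9797760
  zero : ∀ m ∈ M, m 0 = 0
  sing_iff : ∀ m ∈ M, ∀ n, sing (m n) ↔ sing n
  herm_iff : ∀ m ∈ M, ∀ a b, herm (m a) (m b) ↔ herm a b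
  mon : ∀ σ : Equiv.Perm (Fin 6), Equiv.Perm.sign σ = 1 → ∀ ε : Fin 6 → ZMod 3,
    ∑ i, ε i = 0 → ∃ m ∈ M, ∀ n, m n = monF σ ε n
  moves : ∃ m ∈ M, ∃ n, wt n = 1 ∧ wt (m n) ≠ 1

/-- The conclusion on the orbits. -/
structure IsOrbitClass (M : Subgroup (Equiv.Perm (Fin 4096))) (k : ZMod 3) : Prop where
  one_trans : ∀ a b, inOne k a → inOne k b → ∃ m ∈ M, m a = b
  two_trans : ∀ a b, inTwo k a → inTwo k b → ∃ m ∈ M, m a = b
  stable : ∀ g : Equiv.Perm (Fin 4096), g 0 = 0 → (∀ n, sing (g n) ↔ sing n) →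
    (∀ m ∈ M, g * m * g⁻¹ ∈ M) → ∀ n, inOne k (g n) ↔ inOne k n

/-- The vector space that coordinatizes an extraspecial group of order `2 ^ 13`. -/
abbrev V : Type := Fin 6 ⊕ Fin 6 → ZMod 2

/-- The polar form. -/
def pol (q : V → ZMod 2) (a b : V) : ZMod 2 := q (a + b) - q a - q b

/-- A nondegenerate quadratic form. -/
structure IsQuad (q : V → ZMod 2) : Prop where
  zero : q 0 = 0
  add_left : ∀ a b c, pol q (a + b) c = pol q a c + pol q b c
  nondeg : ∀ a, a ≠ 0 → ∃ b, pol q a b ≠ 0

/-- The action of `H/Q` on `Q` modulo its centre. -/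
structure IsAction {G : Type*} [Group G] (z : G) (Q : Subgroup (Subgroup.centralizer ({z} : Set G)))
    [Q.Normal] (q : V → ZMod 2) (pr : ↥Q → V)
    (act : (↥(Subgroup.centralizer ({z} : Set G)) ⧸ Q) →* Equiv.Perm V) : Prop where
  quad : IsQuad q
  pr_mul : ∀ a b : ↥Q, pr (a * b) = pr a + pr b
  pr_zero : ∀ a : ↥Q, pr a = 0 ↔ (((a : Subgroup.centralizer ({z} : Set G)) : G) = 1 ∨
    ((a : Subgroup.centralizer ({z} : Set G)) : G) = z)
  pr_surj : ∀ v, ∃ a : ↥Q, pr a = v
  pr_sq : ∀ a : ↥Q, q (pr a) = 0 ↔ a * a = 1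
  act_add : ∀ k v w, act k (v + w) = act k v + act k w
  act_q : ∀ k v, q (act k v) = q v
  act_inj : Function.Injective act
  act_pr : ∀ (h : Subgroup.centralizer ({z} : Set G)) (a b : ↥Q),
    (b : Subgroup.centralizer ({z} : Set G)) = h * a * h⁻¹ →
      act (QuotientGroup.mk' Q h) (pr a) = pr b

end CfsgLib.LargeFischer85
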