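import Cfsg.Agent.LargeFischer85.Tri
import Cfsg.Agent.LargeFischer85.FrameDefs

/-!
Large Fischer type: the central element of order three has no fixed vector.
-/

set_option autoImplicit false

namespace CfsgLib.LargeFischer85

open CfsgLib.U43Mult IsTriAction

theorem v_two (x : V) : x + x = 0 := by
  funext i
  exact CharTwo.add_self_eq_zero (x i)

theorem card_V : Nat.card V = 4096 := by
  simp [Nat.card_eq_fintype_card]

variable {B : Type*} [Group B] {π : B →* G9} {c : B} {a : B →* Equiv.Perm V}

/-- A faithful module of dimension twelve has no vector fixed by the centre. -/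
theorem fixed_free {ℓ : U4 → B} (hℓ : IsLift π c ℓ) (hinj : Function.Injective a)
    (hadd : ∀ b x y, a b (x + y) = a b x + a b y) : IsTriModule c a := by
  classical
  have hz : ∀ b, a b 0 = 0 := fun b => map_zero (AddMonoidHom.mk' (a b) (hadd b))
  have hc3 : ∀ x, a c (a c (a c x)) = x := fun x => by
    simp only [← Equiv.Perm.mul_apply, ← map_mul]
    rw [show c * (c * c) = c ^ 3 by rw [pow_succ, pow_two, mul_assoc], hℓ.cube, map_one, Equiv.Perm.one_apply]
  have hcomm : ∀ b x, a b (a c x) = a c (a b x) := fun b x => by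
    rw [← Equiv.Perm.mul_apply, ← map_mul, ← (hℓ.central b).eq, map_mul, Equiv.Perm.mul_apply]
  let P : V → V := fun x => x + a c x + a c (a c x)
  have hPadd : ∀ x y, P (x + y) = P x + P y := fun x y => by
    simp only [P, hadd]; abel
  have hPfix : ∀ x, a c (P x) = P x := fun x => by
    simp only [P, hadd, hc3]; abel
  have hPP : ∀ x, P (P x) = P x := fun x => by
    show P x + a c (P x) + a c (a c (P x)) = P x
    rw [hPfix, hPfix, v_two, zero_add]
  have hPcomm : ∀ b x, a b (P x) = P (a b x) := fun b x => by
    simp only [P, hadd, hcomm]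
  let W : AddSubgroup V :=
    { carrier := {x | P x = 0}
      zero_mem' := by show P 0 = 0; simp only [P, hz, add_zero]
      add_mem' := fun {x y} (hx : P x = 0) (hy : P y = 0) => by
        show P (x + y) = 0
        rw [hPadd, hx, hy, add_zero]
      neg_mem' := fun {x} (hx : P x = 0) => by
        show P (-x) = 0
        rwa [show -x = x from neg_eq_of_add_eq_zero_left (v_two x)] }
  have hst : ∀ b x, x ∈ W → a b x ∈ W := fun b x (hx : P x = 0) => by
    show P (a b x) = 0
    rw [← hPcomm, hx, hz]
  let aW : B →* Equiv.Perm W :=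
    MonoidHom.mk' (fun b => (a b).subtypePerm fun x => ⟨fun h => by
        have := hst b⁻¹ _ h
        rwa [← Equiv.Perm.mul_apply, ← map_mul, inv_mul_cancel, map_one, Equiv.Perm.one_apply] at this,
      hst b x⟩) fun b b' => by
      refine Equiv.ext fun x => Subtype.ext ?_
      show a (b * b') (x : V) = a b (a b' x)
      rw [map_mul, Equiv.Perm.mul_apply]
  have htri : IsTriModule c aW := by
    refine ⟨fun x => Subtype.ext (v_two _), fun b x y => Subtype.ext (hadd b _ _), fun x => Subtype.ext ?_⟩
    have hx : (x : V) + a c x + a c (a c x) = 0 := x.2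
    show a c (a c (x : V)) = a c x + x
    rw [← neg_eq_of_add_eq_zero_right hx, neg_eq_of_add_eq_zero_left (v_two _), add_comm]
  let F : AddSubgroup V :=
    { carrier := {x | a c x = x}
      zero_mem' := hz c
      add_mem' := fun {x y} (hx : a c x = x) (hy : a c y = y) => by
        show a c (x + y) = x + y
        rw [hadd, hx, hy]
      neg_mem' := fun {x} (hx : a c x = x) => by
        show a c (-x) = -x
        rwa [show -x = x from neg_eq_of_add_eq_zero_left (v_two x)] }
  have hstF : ∀ b x, x ∈ F → a b x ∈ F := fun b x (hx : a c x = x) => by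
    show a c (a b x) = a b x
    rw [← hcomm, hx]
  let aF : B →* Equiv.Perm F :=
    MonoidHom.mk' (fun b => (a b).subtypePerm fun x => ⟨fun h => by
        have := hstF b⁻¹ _ h
        rwa [← Equiv.Perm.mul_apply, ← map_mul, inv_mul_cancel, map_one, Equiv.Perm.one_apply] at this,
      hstF b x⟩) fun b b' => by
      refine Equiv.ext fun x => Subtype.ext ?_
      show a (b * b') (x : V) = a b (a b' x)
      rw [map_mul, Equiv.Perm.mul_apply]
  have hle : π.ker ≤ aF.ker := by
    intro b hb
    obtain ⟨k, rfl⟩ := hℓ.ker b hb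
    have hc1 : aF c = 1 := Equiv.ext fun x => Subtype.ext x.2
    rw [MonoidHom.mem_ker, cp, map_pow, hc1, one_pow]
  let fF : G9 →* Equiv.Perm F := π.liftOfSurjective hℓ.surj ⟨aF, hle⟩
  have hfF : ∀ b, fF (π b) = aF b := fun b =>
    MonoidHom.liftOfRightInverse_comp_apply π _ (Function.rightInverse_surjInv hℓ.surj) ⟨aF, hle⟩ b
  have htrivF : fF = 1 := by
    refine hom_eq_one (fun x => Subtype.ext (v_two _)) ?_ fF fun g x y => ?_
    · exact (Nat.card_le_card_of_injective _ Subtype.val_injective).trans card_V.le
    · obtain ⟨b, rfl⟩ := hℓ.surj g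
      simp only [hfF]
      exact Subtype.ext (hadd b _ _)
  have hfix : ∀ b x, a c x = x → a b x = x := fun b x hx => by
    have := DFunLike.congr_fun htrivF (π b)
    rw [hfF] at this
    exact congrArg Subtype.val (DFunLike.congr_fun this (⟨x, hx⟩ : F))
  have hW1 : ∀ x, x + P x ∈ W := fun x => by
    show P (x + P x) = 0
    rw [hPadd, hPP, v_two]
  have hne : ∃ w : W, w ≠ 0 := by
    obtain ⟨x, hx⟩ : ∃ x, a c x ≠ x := by
      by_contra hno
      push Not at hno
      exact hℓ.ne_one (hinj ((Equiv.ext hno).trans (map_one a).symm))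
    refine ⟨⟨x + P x, hW1 x⟩, fun e => hx ?_⟩
    have e' : x + P x = 0 := congrArg Subtype.val e
    have hxP : x = P x := by rw [← neg_eq_of_add_eq_zero_right e', neg_eq_of_add_eq_zero_left (v_two x)]
    rw [hxP, hPfix]
  rcases tri_dichotomy hℓ htri hne
    ((Nat.card_le_card_of_injective _ Subtype.val_injective).trans card_V.le) with
    ⟨d, hd, htriv⟩ | ⟨χ, s, hsix⟩
  · exfalso
    refine hd ?_
    have : a d = 1 := by
      refine Equiv.ext fun x => ?_
      have e1 : a d (x + P x) = x + P x := congrArg Subtype.val (htriv ⟨x + P x, hW1 x⟩)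
      have e2 : a d (P x) = P x := hfix d _ (hPfix x)
      rw [hadd, e2] at e1
      exact add_right_cancel e1
    rw [hinj (this.trans (map_one a).symm), map_one]
  · have htop : Function.Surjective (Subtype.val : W → V) :=
      ((Nat.bijective_iff_injective_and_card _).2
        ⟨Subtype.val_injective, hsix.card_eq.trans card_V.symm⟩).2
    refine ⟨v_two, hadd, fun x => ?_⟩
    obtain ⟨w, rfl⟩ := htop x
    exact congrArg Subtype.val (htri.sq w)

end CfsgLib.LargeFischer85
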