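import Cfsg.Agent.LargeFischer85.SmallModule

/-!
Large Fischer type: lifting `3^4` to a group `3.U4(3)` as an elementary abelian group.
-/

set_option autoImplicit false

namespace CfsgLib.LargeFischer85

open CfsgLib.U43Mult

variable {B : Type*} [Group B]

/-- Powers of an element of order three. -/
def cp (c : B) (k : ZMod 3) : B := c ^ k.val

/-- A cover of `G9` with kernel generated by `c` and elementary abelian lifts of the elements of
order three. -/
structure IsLift (π : B →* G9) (c : B) (ℓ : U4 → B) : Prop where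
  surj : Function.Surjective π
  cube : c ^ 3 = 1
  ne_one : c ≠ 1
  map_c : π c = 1
  ker : ∀ b, π b = 1 → ∃ k, b = cp c k
  central : ∀ b, Commute c b
  map_add : ∀ u v, ℓ (u + v) = ℓ u * ℓ v
  map_lift : ∀ u, π (ℓ u) = xEl u

theorem cp_zero (c : B) : cp c 0 = 1 := pow_zero c

theorem cp_one (c : B) : cp c 1 = c := pow_one c

theorem cp_add {c : B} (h : c ^ 3 = 1) (a b : ZMod 3) : cp c (a + b) = cp c a * cp c b := by
  rw [cp, cp, cp, ← pow_add, ZMod.val_add, ← pow_eq_pow_mod _ h]

theorem cp_inj {c : B} (h : c ^ 3 = 1) (hne : c ≠ 1) {a b : ZMod 3} (e : cp c a = cp c b) :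
    a = b := by
  by_contra hab
  have e2 : cp c (a - b) = 1 := by
    rw [sub_eq_add_neg, cp_add h, e, ← cp_add h, add_neg_cancel, cp_zero]
  have hd : a - b = 1 ∨ a - b = 2 := by
    revert hab
    generalize a = p
    generalize b = r
    revert p r
    decide
  rcases hd with hd | hd <;> rw [hd] at e2
  · exact hne (by rwa [cp_one] at e2)
  · refine hne ?_
    have e3 : c ^ 2 = 1 := e2
    rwa [pow_succ, e3, one_mul] at h

theorem hom_trivial {f : G9 →* Multiplicative (ZMod 2)} : f = 1 := by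
  refine MonoidHom.ext fun g => ?_
  have : g ∈ f.ker := by
    have h : commutator G9 ≤ f.ker := by
      rw [commutator_def, Subgroup.commutator_le]
      intro a _ b _
      rw [MonoidHom.mem_ker, map_commutatorElement, commutatorElement_eq_one_iff_mul_comm, mul_comm]
    rw [perfect_G9] at h
    exact h (Subgroup.mem_top g)
  exact this

/-- A kernel of order three is central. -/
theorem central_of_kernel {π : B →* G9} (hs : Function.Surjective π) {c : B} (h3 : c ^ 3 = 1)
    (hne : c ≠ 1) (hπc : π c = 1) (hker : ∀ b, π b = 1 → ∃ k, b = cp c k) :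
    ∀ b, Commute c b := by
  classical
  have hk : ∀ b, ∃ k : ZMod 3, k ≠ 0 ∧ b * c * b⁻¹ = cp c k := by
    intro b
    obtain ⟨k, hk⟩ := hker (b * c * b⁻¹) (by rw [map_mul, map_mul, hπc, mul_one, map_inv, mul_inv_cancel])
    refine ⟨k, fun e => hne ?_, hk⟩
    rw [e, cp_zero, mul_inv_eq_one, mul_eq_left] at hk
    exact hk
  choose k hk0 hk using hk
  let sg : ZMod 3 → Multiplicative (ZMod 2) := fun a => Multiplicative.ofAdd (if a = 1 then 0 else 1)
  have hmul : ∀ a b, k (a * b) = k a * k b := by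
    intro a b
    refine cp_inj h3 hne ?_
    rw [← hk (a * b)]
    have e : a * b * c * (a * b)⁻¹ = a * cp c (k b) * a⁻¹ := by rw [← hk b]; group
    rw [e]
    rcases (by generalize k b = r; revert r; decide : k b = 0 ∨ k b = 1 ∨ k b = 2) with h | h | h
    · exact absurd h (hk0 b)
    · rw [h, cp_one, mul_one, hk a]
    · rw [h, show cp c 2 = cp c 1 * cp c 1 by rw [← cp_add h3]; rfl, cp_one,
        show a * (c * c) * a⁻¹ = a * c * a⁻¹ * (a * c * a⁻¹) by group, hk a, ← cp_add h3]
      congr 1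
      ring
  have hsg : ∀ a b : ZMod 3, a ≠ 0 → b ≠ 0 → sg (a * b) = sg a * sg b := by
    intro a b ha hb
    revert ha hb
    revert a b
    decide
  let F : B →* Multiplicative (ZMod 2) :=
    MonoidHom.mk' (fun b => sg (k b)) fun a b => by rw [hmul, hsg _ _ (hk0 a) (hk0 b)]
  have hFc : ∀ b, π b = 1 → F b = 1 := by
    intro b hb
    obtain ⟨j, rfl⟩ := hker b hb
    have : k (cp c j) = 1 := cp_inj h3 hne (by
      rw [← hk, cp_one, mul_inv_eq_iff_eq_mul]
      exact ((Commute.refl c).pow_left _).eq)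
    show sg _ = 1
    rw [this]
    rfl
  have hle : π.ker ≤ F.ker := fun b hb => hFc b hb
  have htriv : (π.liftOfSurjective hs) ⟨F, hle⟩ = 1 := hom_trivial
  intro b
  have hb : F b = 1 := by
    rw [← MonoidHom.liftOfRightInverse_comp_apply π _ (Function.rightInverse_surjInv hs) ⟨F, hle⟩ b]
    exact DFunLike.congr_fun htriv (π b)
  have hb1 : k b = 1 := by
    have h0 := hk0 b
    change sg (k b) = 1 at hb
    revert hb h0
    generalize k b = r
    revert r
    decide
  have := hk b
  rw [hb1, cp_one, mul_inv_eq_iff_eq_mul] at this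
  exact this.symm

variable {π : B →* G9} {c : B}

/-- Conjugates of lifts. -/
theorem exists_conj_lift {ℓ : U4 → B} (hπℓ : ∀ u, π (ℓ u) = xEl u)
    (hker : ∀ b, π b = 1 → ∃ k, b = cp c k) {A : SL9} {y : B} (hy : π y = psi A) (u : U4) :
    ∃ t, y * ℓ u * y⁻¹ = ℓ (lin A.1 u) * cp c t := by
  obtain ⟨t, ht⟩ := hker ((ℓ (lin A.1 u))⁻¹ * (y * ℓ u * y⁻¹)) (by
    simp only [map_mul, map_inv, hπℓ, hy, psi_conj, inv_mul_cancel])
  exact ⟨t, by rw [← ht]; group⟩

/-- The lifts exist. -/
theorem exists_lift (hs : Function.Surjective π) (h3 : c ^ 3 = 1) (hne : c ≠ 1) (hπc : π c = 1)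
    (hker : ∀ b, π b = 1 → ∃ k, b = cp c k) : ∃ ℓ : U4 → B, IsLift π c ℓ := by
  classical
  have hcent := central_of_kernel hs h3 hne hπc hker
  have hcp : ∀ (a : ZMod 3) (b : B), Commute (cp c a) b := fun a b => (hcent b).pow_left _
  choose r hr using fun u => hs (xEl u)
  have hrc : ∀ u v, ∃ k, r u * r v = r v * r u * cp c k := by
    intro u v
    obtain ⟨k, hk⟩ := hker ((r v * r u)⁻¹ * (r u * r v)) (by
      simp only [map_mul, map_inv, hr, ← xEl_add, add_comm, inv_mul_cancel])
    exact ⟨k, by rw [← hk]; group⟩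
  choose β hβ using hrc
  have hcanc : ∀ {w : B} {a b : ZMod 3}, w * cp c a = w * cp c b → a = b :=
    fun e => cp_inj h3 hne (mul_left_cancel e)
  have hradd : ∀ u v, ∃ k, r (u + v) = r u * r v * cp c k := by
    intro u v
    obtain ⟨k, hk⟩ := hker ((r u * r v)⁻¹ * r (u + v)) (by
      simp only [map_mul, map_inv, hr, ← xEl_add, inv_mul_cancel])
    exact ⟨k, by rw [← hk]; group⟩
  have hself : ∀ u, β u u = 0 := fun u => (hcanc (w := r u * r u) (by rw [← hβ u u, cp_zero, mul_one])).symm
  have hleft : ∀ u u' v, β (u + u') v = β u v + β u' v := by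
    intro u u' v
    obtain ⟨k, hk⟩ := hradd u u'
    apply hcanc (w := r v * r (u + u'))
    rw [← hβ, hk]
    calc r u * r u' * cp c k * r v = r u * (r u' * r v) * cp c k := by
          rw [mul_assoc (r u * r u'), (hcp k (r v)).eq]; group
      _ = r u * r v * (r u' * cp c (β u' v)) * cp c k := by rw [hβ u' v]; group
      _ = r v * r u * cp c (β u v) * r u' * cp c (β u' v) * cp c k := by rw [hβ u v]; group
      _ = r v * r u * (r u' * cp c (β u v)) * cp c (β u' v) * cp c k := by
          rw [← (hcp (β u v) (r u')).eq]; group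
      _ = r v * (r u * r u' * cp c k) * cp c (β u v + β u' v) := by
          rw [cp_add h3]
          simp only [mul_assoc]
          rw [← mul_assoc (cp c k) (cp c (β u v)), (hcp k _).eq]
          simp only [mul_assoc]
          rw [(hcp k (cp c (β u' v))).eq]
  have hswap : ∀ u v, β v u = -β u v := fun u v => by
    have e := hβ u v
    rw [hβ v u, mul_assoc, ← cp_add h3] at e
    have := hcanc (w := r u * r v) (a := 0) (b := β v u + β u v) (by rw [cp_zero, mul_one]; exact e)
    linear_combination this.symm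
  have hright : ∀ u v v', β u (v + v') = β u v + β u v' := fun u v v' => by
    rw [hswap (v + v') u, hleft, hswap v u, hswap v' u]; ring
  have hinv : ∀ (A : SL9) (L : U4 → U4), (∀ u, lin A.1 u = L u) → ∀ u v, β (L u) (L v) = β u v := by
    intro A L hA u v
    obtain ⟨y, hy⟩ := hs (psi A)
    obtain ⟨t, ht⟩ := exists_conj_lift hr hker hy u
    obtain ⟨t', ht'⟩ := exists_conj_lift hr hker hy v
    rw [hA] at ht ht'
    apply hcanc (w := r (L v) * r (L u) * cp c t' * cp c t)
    have e := congrArg (fun b => y * b * y⁻¹) (hβ u v)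
    have e1 : y * (r u * r v) * y⁻¹ = y * r u * y⁻¹ * (y * r v * y⁻¹) := by group
    have e2 : y * (r v * r u * cp c (β u v)) * y⁻¹ =
        y * r v * y⁻¹ * (y * r u * y⁻¹) * cp c (β u v) := by
      rw [← mul_assoc, mul_assoc _ (cp c (β u v)), (hcp _ y⁻¹).eq]; group
    simp only [e1, e2, ht, ht'] at e
    have p1 : r (L u) * cp c t * (r (L v) * cp c t') = r (L u) * r (L v) * (cp c t * cp c t') := by
      rw [mul_assoc, ← mul_assoc (cp c t), (hcp t (r (L v))).eq]; group
    have p2 : r (L v) * cp c t' * (r (L u) * cp c t) = r (L v) * r (L u) * (cp c t' * cp c t) := by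
      rw [mul_assoc, ← mul_assoc (cp c t'), (hcp t' (r (L u))).eq]; group
    rw [p1, p2, hβ (L u) (L v), (hcp t (cp c t')).eq] at e
    have p3 : ∀ w d f : B, Commute d f → w * d * f = w * f * d := fun w d f hdf => by
      rw [mul_assoc, hdf.eq, ← mul_assoc]
    rw [p3 _ _ _ (hcp (β (L u) (L v)) (cp c t' * cp c t))] at e
    simpa only [mul_assoc] using e
  have hcomm : ∀ u v, β u v = 0 :=
    no_alt β hleft hself (hinv testOne linOne lin_testOne) (hinv testTwo linTwo lin_testTwo) hright
  have hC : ∀ u v, Commute (r u) (r v) := fun u v => by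
    have := hβ u v
    rwa [hcomm, cp_zero, mul_one] at this
  have hcube : ∀ u, ∃ k, r u ^ 3 = cp c k := fun u => hker _ (by
    rw [map_pow, hr, pow_succ, pow_two, ← xEl_add, ← xEl_add,
      show u + u + u = 0 by funext i; simp only [Pi.add_apply, Pi.zero_apply]; generalize u i = a; revert a; decide,
      xEl_zero])
  choose f hf using hcube
  have hcpk : ∀ k, cp c k ^ 3 = 1 := fun k => by rw [cp, ← pow_mul, mul_comm, pow_mul, h3, one_pow]
  have hfadd : ∀ u v, f (u + v) = f u + f v := fun u v => by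
    obtain ⟨k, hk⟩ := hradd u v
    apply cp_inj h3 hne
    rw [← hf, hk, ((hcp k _).symm).mul_pow, hcpk, mul_one, (hC u v).mul_pow, hf, hf, cp_add h3]
  have hfinv : ∀ (A : SL9) (L : U4 → U4), (∀ u, lin A.1 u = L u) → ∀ u, f (L u) = f u := by
    intro A L hA u
    obtain ⟨y, hy⟩ := hs (psi A)
    obtain ⟨t, ht⟩ := exists_conj_lift hr hker hy u
    rw [hA] at ht
    apply cp_inj h3 hne
    have e := congrArg (fun b => b ^ 3) ht
    simp only [conj_pow, hf, ((hcp t _).symm).mul_pow, hcpk, mul_one] at e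
    rw [← e, ← (hcp (f u) y).eq, mul_inv_cancel_right]
  have hf0 : ∀ u, f u = 0 := fun u =>
    DFunLike.congr_fun (no_fun (AddMonoidHom.mk' f hfadd) (hfinv testOne linOne lin_testOne)
      (hfinv testTwo linTwo lin_testTwo)) u
  have hr3 : ∀ u, r u ^ 3 = 1 := fun u => by rw [hf, hf0, cp_zero]
  let p : Fin 4 → ZMod 3 → B := fun i a => r (unit4 i) ^ a.val
  have hp : ∀ i a b, p i (a + b) = p i a * p i b := fun i a b => by
    simp only [p, ← pow_add, ZMod.val_add, ← pow_eq_pow_mod _ (hr3 (unit4 i))]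
  have hpc : ∀ i j a b, Commute (p i a) (p j b) := fun i j a b => (hC _ _).pow_pow _ _
  let ℓ : U4 → B := fun u => p 0 (u 0) * p 1 (u 1) * (p 2 (u 2) * p 3 (u 3))
  refine ⟨ℓ, hs, h3, hne, hπc, hker, hcent, fun u v => ?_, fun u => ?_⟩
  · simp only [ℓ, Pi.add_apply, hp]
    rw [(hpc 0 1 (v 0) (u 1)).mul_mul_mul_comm, (hpc 2 3 (v 2) (u 3)).mul_mul_mul_comm,
      (((hpc 0 2 _ _).mul_right (hpc 0 3 _ _)).mul_left
        ((hpc 1 2 _ _).mul_right (hpc 1 3 _ _))).mul_mul_mul_comm]
  · have hx : ∀ (v : U4) (n : ℕ), xEl v ^ n = xEl (n • v) := fun v n => by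
      induction n with
      | zero => rw [pow_zero, zero_nsmul, xEl_zero]
      | succ n ih => rw [pow_succ, ih, succ_nsmul, xEl_add]
    have hπp : ∀ i a, π (p i a) = xEl (a • unit4 i) := fun i a => by
      simp only [p, map_pow, hr, hx, ← Nat.cast_smul_eq_nsmul (ZMod 3), ZMod.natCast_val, ZMod.cast_id', id_eq]
    simp only [ℓ, map_mul, hπp, ← xEl_add]
    rw [← add_assoc, ← expand4]

end CfsgLib.LargeFischer85
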