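import Cfsg.Agent.U43Mult.Main
import Cfsg.Agent.Classical.Linear.Simple

/-!
Large Fischer type: a subgroup `3^4 : PSL(2, 9)` of the unitary group in dimension four over the
field with nine elements, in a basis of two hyperbolic pairs.
-/

set_option autoImplicit false

namespace CfsgLib.LargeFischer85

open CfsgLib.U43Mult
open scoped Matrix

/-- The index type of the hyperbolic basis. -/
abbrev Pair4 : Type := Fin 2 ⊕ Fin 2

/-- The parameters of the abelian subgroup of order 81. -/
abbrev U4 : Type := Fin 4 → ZMod 3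

/-- The special linear group of degree two over the field with nine elements. -/
abbrev SL9 : Type := Matrix.SpecialLinearGroup (Fin 2) GF9

/-- The hyperbolic basis, as columns. -/
def tMat : Matrix (Fin 4) Pair4 GF9 :=
  Matrix.of fun i => Sum.elim
    (fun j => (![![1, ⟨1, 1⟩, 0, 0], ![0, 0, 1, ⟨1, 1⟩]] j : Fin 4 → GF9) i)
    (fun j => (![![-1, ⟨1, 1⟩, 0, 0], ![0, 0, -1, ⟨1, 1⟩]] j : Fin 4 → GF9) i)

/-- The form in that basis. -/
def jMat : Matrix Pair4 Pair4 GF9 := Matrix.fromBlocks 0 1 1 0

/-- The inverse basis. -/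
def sMat : Matrix Pair4 (Fin 4) GF9 := jMat * (tMat.map GF9.conj)ᵀ

theorem tMat_form : tMatᵀ * tMat.map GF9.conj = jMat := by decide +kernel

theorem sMat_form : sMatᵀ * jMat * sMat.map GF9.conj = 1 := by decide +kernel

theorem sMat_mul_tMat : sMat * tMat = 1 := by decide +kernel

theorem tMat_mul_sMat : tMat * sMat = 1 := by decide +kernel

/-- Preservation of the form. -/
def IsUni (x : Matrix Pair4 Pair4 GF9) : Prop := xᵀ * jMat * x.map GF9.conj = jMat ∧ x.det = 1

/-- The change of basis. -/
def conjT (x : Matrix Pair4 Pair4 GF9) : Matrix (Fin 4) (Fin 4) GF9 := tMat * x * sMat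

theorem conjT_mul (x y : Matrix Pair4 Pair4 GF9) : conjT (x * y) = conjT x * conjT y := by
  have h : sMat * tMat * (y * sMat) = y * sMat := by rw [sMat_mul_tMat, Matrix.one_mul]
  simp only [conjT, Matrix.mul_assoc] at h ⊢
  rw [h]

theorem conjT_one : conjT 1 = 1 := by rw [conjT, Matrix.mul_one, tMat_mul_sMat]

theorem conjT_injective : Function.Injective conjT := by
  intro x y h
  have e : ∀ w, sMat * conjT w * tMat = w := fun w => by
    simp only [conjT, Matrix.mul_assoc, sMat_mul_tMat, Matrix.mul_one]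
    rw [← Matrix.mul_assoc, sMat_mul_tMat, Matrix.one_mul]
  rw [← e x, h, e]

/-- The equivalence of the index types. -/
def pairEquiv : Pair4 ≃ Fin 4 := finSumFinEquiv

theorem det_conjT (x : Matrix Pair4 Pair4 GF9) : (conjT x).det = x.det := by
  have h : conjT x = (tMat.submatrix id pairEquiv.symm) * (x.submatrix pairEquiv.symm pairEquiv.symm) *
      (sMat.submatrix pairEquiv.symm id) := by
    rw [Matrix.submatrix_mul_equiv, Matrix.submatrix_mul_equiv, Matrix.submatrix_id_id]
    rfl
  have h1 : (tMat.submatrix id pairEquiv.symm).det * (sMat.submatrix pairEquiv.symm id).det = 1 := by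
    rw [← Matrix.det_mul, Matrix.submatrix_mul_equiv, tMat_mul_sMat, Matrix.submatrix_id_id,
      Matrix.det_one]
  rw [h, Matrix.det_mul, Matrix.det_mul, Matrix.det_submatrix_equiv_self,
    mul_right_comm, h1, one_mul]

theorem conjT_unitary {x : Matrix Pair4 Pair4 GF9} (hx : IsUni x) :
    (conjT x)ᵀ * (conjT x).map GF9.conj = 1 := by
  rw [conjT, Matrix.map_mul, Matrix.map_mul, Matrix.transpose_mul, Matrix.transpose_mul]
  calc sMatᵀ * (xᵀ * tMatᵀ) * (tMat.map GF9.conj * x.map GF9.conj * sMat.map GF9.conj)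
      = sMatᵀ * (xᵀ * (tMatᵀ * tMat.map GF9.conj) * x.map GF9.conj) * sMat.map GF9.conj := by
        simp only [Matrix.mul_assoc]
    _ = sMatᵀ * jMat * sMat.map GF9.conj := by rw [tMat_form, hx.1]
    _ = 1 := sMat_form

/-- The element of the unitary group. -/
def toSU (x : Matrix Pair4 Pair4 GF9) (hx : IsUni x) : SU9 :=
  ⟨⟨conjT x, by rw [det_conjT, hx.2]⟩, mem_SU9_of _ (conjT_unitary hx)⟩

theorem mat_toSU (x : Matrix Pair4 Pair4 GF9) (hx : IsUni x) : mat (toSU x hx) = conjT x := rfl

theorem SU9_ext {a b : SU9} (h : mat a = mat b) : a = b := Subtype.ext (Subtype.ext h)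

/-- The contragredient conjugate. -/
def contra (A : Matrix (Fin 2) (Fin 2) GF9) : Matrix (Fin 2) (Fin 2) GF9 :=
  (A.adjugate.map GF9.conj)ᵀ

/-- The block diagonal element. -/
def dMat (A : Matrix (Fin 2) (Fin 2) GF9) : Matrix Pair4 Pair4 GF9 :=
  Matrix.fromBlocks A 0 0 (contra A)

theorem conj_conj : ∀ x : GF9, GF9.conj (GF9.conj x) = x := by decide +kernel

theorem map_conj_conj (A : Matrix (Fin 2) (Fin 2) GF9) : (A.map GF9.conj).map GF9.conj = A := by
  ext i j : 1
  exact conj_conj _

theorem star_mul_contra {A : Matrix (Fin 2) (Fin 2) GF9} (hA : A.det = 1) :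
    (A.map GF9.conj)ᵀ * contra A = 1 := by
  rw [contra, ← Matrix.transpose_mul, ← Matrix.map_mul, Matrix.adjugate_mul, hA, one_smul,
    Matrix.map_one _ (map_zero _) (map_one _), Matrix.transpose_one]

theorem transpose_mul_contra {A : Matrix (Fin 2) (Fin 2) GF9} (hA : A.det = 1) :
    Aᵀ * (contra A).map GF9.conj = 1 := by
  have h := congrArg (fun M : Matrix (Fin 2) (Fin 2) GF9 => M.map GF9.conj) (star_mul_contra hA)
  simp only [Matrix.map_mul] at h
  rw [← Matrix.transpose_map, map_conj_conj, Matrix.map_one _ (map_zero _) (map_one _)] at h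
  exact h

theorem isUni_dMat {A : Matrix (Fin 2) (Fin 2) GF9} (hA : A.det = 1) : IsUni (dMat A) := by
  have h1 := transpose_mul_contra hA
  have h2 : (contra A)ᵀ * A.map GF9.conj = 1 := by
    have h := congrArg Matrix.transpose (star_mul_contra hA)
    rwa [Matrix.transpose_mul, Matrix.transpose_transpose, Matrix.transpose_one] at h
  refine ⟨?_, ?_⟩
  · simp [dMat, jMat, Matrix.fromBlocks_transpose, Matrix.fromBlocks_map,
      Matrix.fromBlocks_multiply, h1, h2]
  · have h3 : (contra A).det = 1 := by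
      rw [contra, Matrix.det_transpose, ← RingHom.mapMatrix_apply, ← RingHom.map_det,
        Matrix.det_adjugate, hA, one_pow, map_one]
    rw [dMat, Matrix.det_fromBlocks_zero₂₁, hA, h3, one_mul]

theorem dMat_mul (A B : Matrix (Fin 2) (Fin 2) GF9) : dMat (A * B) = dMat A * dMat B := by
  simp [dMat, contra, Matrix.fromBlocks_multiply, Matrix.adjugate_mul_distrib,
    Matrix.map_mul, Matrix.transpose_mul]

theorem dMat_one : dMat 1 = 1 := by
  simp [dMat, contra, Matrix.adjugate_one, Matrix.fromBlocks_one]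

/-- The unipotent element. -/
def uMat (M : Matrix (Fin 2) (Fin 2) GF9) : Matrix Pair4 Pair4 GF9 :=
  Matrix.fromBlocks 1 M 0 1

/-- The skew hermitian matrix with given parameters. -/
def skew (u : U4) : Matrix (Fin 2) (Fin 2) GF9 :=
  Matrix.of ![![⟨0, u 0⟩, ⟨u 2, u 3⟩], ![-GF9.conj ⟨u 2, u 3⟩, ⟨0, u 1⟩]]

/-- The parameters of a skew hermitian matrix. -/
def coords (M : Matrix (Fin 2) (Fin 2) GF9) : U4 :=
  ![(M 0 0).im, (M 1 1).im, (M 0 1).re, (M 0 1).im]

theorem coords_skew (u : U4) : coords (skew u) = u := by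
  funext i
  fin_cases i <;> rfl

theorem skew_skew (u : U4) : (skew u)ᵀ + (skew u).map GF9.conj = 0 := by
  revert u
  decide +kernel

theorem skew_add (u v : U4) : skew (u + v) = skew u + skew v := by
  ext i j : 1
  fin_cases i <;> fin_cases j
  · exact GF9.ext (add_zero (0 : ZMod 3)).symm rfl
  · exact GF9.ext rfl rfl
  · exact GF9.ext (neg_add (u 2) (v 2)) (by show -(-(u 3 + v 3)) = - -(u 3) + - -(v 3); ring)
  · exact GF9.ext (add_zero (0 : ZMod 3)).symm rfl

theorem entry_diag : ∀ x : GF9, x + GF9.conj x = 0 → x = ⟨0, x.im⟩ := by decide +kernel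

theorem entry_off : ∀ x y : GF9, x + GF9.conj y = 0 → x = -GF9.conj y := by decide +kernel

theorem eq_skew {M : Matrix (Fin 2) (Fin 2) GF9} (h : Mᵀ + M.map GF9.conj = 0) :
    M = skew (coords M) := by
  have h00 := congrFun (congrFun h 0) 0
  have h11 := congrFun (congrFun h 1) 1
  have h01 := congrFun (congrFun h 0) 1
  simp only [Matrix.add_apply, Matrix.transpose_apply, Matrix.map_apply, Matrix.zero_apply] at h00 h11 h01
  ext i j : 1
  fin_cases i <;> fin_cases j
  · exact entry_diag _ h00
  · rfl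
  · exact entry_off _ _ h01
  · exact entry_diag _ h11

theorem isUni_uMat (u : U4) : IsUni (uMat (skew u)) := by
  refine ⟨?_, ?_⟩
  · simp [uMat, jMat, Matrix.fromBlocks_transpose, Matrix.fromBlocks_map,
      Matrix.fromBlocks_multiply, ← add_comm (skew u)ᵀ, skew_skew]
  · rw [uMat, Matrix.det_fromBlocks_zero₂₁, Matrix.det_one, one_mul]

theorem uMat_mul (M N : Matrix (Fin 2) (Fin 2) GF9) : uMat (M + N) = uMat M * uMat N := by
  simp [uMat, Matrix.fromBlocks_multiply, add_comm]

theorem uMat_injective : Function.Injective uMat := fun M N h =>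
  congrArg Matrix.toBlocks₁₂ h |> fun e => by
    simpa [uMat, Matrix.toBlocks_fromBlocks₁₂] using e

/-- The action on skew hermitian matrices. -/
def twist (A M : Matrix (Fin 2) (Fin 2) GF9) : Matrix (Fin 2) (Fin 2) GF9 :=
  A * M * (A.map GF9.conj)ᵀ

theorem twist_skew (A : Matrix (Fin 2) (Fin 2) GF9) (u : U4) :
    (twist A (skew u))ᵀ + (twist A (skew u)).map GF9.conj = 0 := by
  rw [twist, Matrix.transpose_mul, Matrix.transpose_mul, Matrix.transpose_transpose,
    Matrix.map_mul, Matrix.map_mul, ← Matrix.transpose_map, map_conj_conj, ← Matrix.mul_assoc,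
    ← Matrix.add_mul, ← Matrix.mul_add, skew_skew, Matrix.mul_zero, Matrix.zero_mul]

/-- The action on the parameters. -/
def lin (A : Matrix (Fin 2) (Fin 2) GF9) (u : U4) : U4 := coords (twist A (skew u))

theorem dMat_uMat {A : Matrix (Fin 2) (Fin 2) GF9} (hA : A.det = 1) (u : U4) :
    dMat A * uMat (skew u) = uMat (skew (lin A u)) * dMat A := by
  have h : twist A (skew u) * contra A = A * skew u := by
    rw [twist, Matrix.mul_assoc, star_mul_contra hA, Matrix.mul_one]
  rw [lin, ← eq_skew (twist_skew A u)]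
  simp [dMat, uMat, Matrix.fromBlocks_multiply, h]

/-- The diagonal embedding. -/
def dHom : SL9 →* SU9 where
  toFun A := toSU (dMat A.1) (isUni_dMat A.2)
  map_one' := SU9_ext (by
    rw [mat_toSU, Matrix.SpecialLinearGroup.coe_one, dMat_one, conjT_one]; rfl)
  map_mul' A B := SU9_ext (by
    show conjT (dMat (A * B : SL9).1) = conjT (dMat A.1) * conjT (dMat B.1)
    rw [Matrix.SpecialLinearGroup.coe_mul, dMat_mul, conjT_mul])

/-- The unipotent embedding. -/
def uEl (u : U4) : SU9 := toSU (uMat (skew u)) (isUni_uMat u)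

theorem uEl_add (u v : U4) : uEl (u + v) = uEl u * uEl v := SU9_ext (by
  show conjT (uMat (skew (u + v))) = conjT (uMat (skew u)) * conjT (uMat (skew v))
  rw [skew_add, uMat_mul, conjT_mul])

theorem uEl_injective : Function.Injective uEl := fun u v h => by
  have := uMat_injective (conjT_injective (congrArg mat h))
  rw [← coords_skew u, this, coords_skew]

theorem dHom_uEl (A : SL9) (u : U4) : dHom A * uEl u = uEl (lin A.1 u) * dHom A := SU9_ext (by
  show conjT (dMat A.1) * conjT (uMat (skew u)) = conjT (uMat (skew (lin A.1 u))) * conjT (dMat A.1)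
  rw [← conjT_mul, ← conjT_mul, dMat_uMat A.2])

/-- The image of the special linear group in the simple group. -/
noncomputable def psi : SL9 →* G9 := (QuotientGroup.mk' _).comp dHom

/-- The elements of the abelian subgroup of order 81. -/
noncomputable def xEl (u : U4) : G9 := QuotientGroup.mk' _ (uEl u)

theorem xEl_add (u v : U4) : xEl (u + v) = xEl u * xEl v := by
  rw [xEl, uEl_add, map_mul]; rfl

theorem psi_conj (A : SL9) (u : U4) : psi A * xEl u * (psi A)⁻¹ = xEl (lin A.1 u) := by
  rw [mul_inv_eq_iff_eq_mul]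
  show QuotientGroup.mk' _ (dHom A) * QuotientGroup.mk' _ (uEl u) = _
  rw [← map_mul, dHom_uEl, map_mul]
  rfl

/-- The first test element. -/
def testOne : SL9 := ⟨!![1, 1; 0, 1], by decide +kernel⟩

/-- The second test element. -/
def testTwo : SL9 := ⟨!![⟨1, 1⟩, 0; 1, ⟨2, 1⟩], by decide +kernel⟩

/-- The action of the first test element. -/
def linOne (u : U4) : U4 := ![u 0 + u 1 + 2 * u 3, u 1, u 2, u 1 + u 3]

/-- The action of the second test element. -/
def linTwo (u : U4) : U4 := ![2 * u 0, u 0 + 2 * u 1 + u 2 + u 3, 2 * u 0 + 2 * u 3, u 0 + u 2]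

theorem lin_testOne : ∀ u, lin testOne.1 u = linOne u := by decide +kernel

theorem lin_testTwo : ∀ u, lin testTwo.1 u = linTwo u := by decide +kernel

theorem lin_fixed : ∀ u : U4, linOne u = u → linTwo u = u → u = 0 := by decide +kernel

theorem xEl_injective : Function.Injective xEl := by
  have key : ∀ w, xEl w = 1 → w = 0 := by
    intro w hw
    have hc : uEl w ∈ Subgroup.center SU9 := (QuotientGroup.eq_one_iff _).1 hw
    have hfix : ∀ A : SL9, lin A.1 w = w := fun A => uEl_injective (by
      have h := dHom_uEl A w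
      rw [Subgroup.mem_center_iff.1 hc (dHom A)] at h
      exact (mul_right_cancel h).symm)
    exact lin_fixed w (by rw [← lin_testOne]; exact hfix _) (by rw [← lin_testTwo]; exact hfix _)
  intro u v h
  have h2 : xEl (u - v) * xEl v = xEl u := by rw [← xEl_add, sub_add_cancel]
  exact sub_eq_zero.1 (key _ (by rwa [h, mul_eq_right] at h2))

end CfsgLib.LargeFischer85
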