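import Cfsg.Agent.LargeFischer85.Model

/-!
Large Fischer type: invariants of the action of `PSL(2, 9)` on the four-dimensional orthogonal
module over three elements.
-/

set_option autoImplicit false

namespace CfsgLib.LargeFischer85

open CfsgLib.U43Mult

/-- A coordinate vector. -/
def unit4 (i : Fin 4) : U4 := Pi.single i 1

theorem expand4 (u : U4) :
    u = u 0 • unit4 0 + u 1 • unit4 1 + u 2 • unit4 2 + u 3 • unit4 3 := by
  funext j
  fin_cases j <;> simp [unit4, Pi.single_apply]

theorem additive_smul {A : Type*} [AddCommGroup A] [Module (ZMod 3) A] {M : Type*} [AddCommGroup M]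
    [Module (ZMod 3) M] (f : A →+ M) (c : ZMod 3) (a : A) : f (c • a) = c • f a :=
  map_smul (f.toZModLinearMap 3) c a

/-- A linear form. -/
def form1 (c u : U4) : ZMod 3 := c 0 * u 0 + c 1 * u 1 + c 2 * u 2 + c 3 * u 3

theorem additive_eq_form1 (f : U4 →+ ZMod 3) (u : U4) :
    f u = form1 (fun i => f (unit4 i)) u := by
  conv_lhs => rw [expand4 u]
  simp only [map_add, additive_smul, smul_eq_mul, form1]
  ring

theorem form1_fixed : ∀ c : U4, (∀ i, form1 c (linOne (unit4 i)) = form1 c (unit4 i)) →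
    (∀ i, form1 c (linTwo (unit4 i)) = form1 c (unit4 i)) → c = 0 := by decide +kernel

/-- There is no invariant linear form. -/
theorem no_fun (f : U4 →+ ZMod 3) (h1 : ∀ u, f (linOne u) = f u) (h2 : ∀ u, f (linTwo u) = f u) :
    f = 0 := by
  have hc : (fun i => f (unit4 i)) = (0 : U4) :=
    form1_fixed _ (fun i => by rw [← additive_eq_form1, ← additive_eq_form1, h1])
      (fun i => by rw [← additive_eq_form1, ← additive_eq_form1, h2])
  refine AddMonoidHom.ext fun u => ?_
  rw [additive_eq_form1, hc]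
  simp [form1]

/-- An alternating form, by its six coefficients. -/
def form2 (c : Fin 6 → ZMod 3) (u v : U4) : ZMod 3 :=
  c 0 * (u 0 * v 1 - u 1 * v 0) + c 1 * (u 0 * v 2 - u 2 * v 0) + c 2 * (u 0 * v 3 - u 3 * v 0) +
    c 3 * (u 1 * v 2 - u 2 * v 1) + c 4 * (u 1 * v 3 - u 3 * v 1) + c 5 * (u 2 * v 3 - u 3 * v 2)

theorem form2_fixed : ∀ c : Fin 6 → ZMod 3,
    (∀ i j, i < j → form2 c (linOne (unit4 i)) (linOne (unit4 j)) = form2 c (unit4 i) (unit4 j)) →
    (∀ i j, i < j → form2 c (linTwo (unit4 i)) (linTwo (unit4 j)) = form2 c (unit4 i) (unit4 j)) →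
      c = 0 := by decide +kernel

/-- There is no invariant alternating form. -/
theorem no_alt (B : U4 → U4 → ZMod 3) (hl : ∀ u u' v, B (u + u') v = B u v + B u' v)
    (ha : ∀ u, B u u = 0) (h1 : ∀ u v, B (linOne u) (linOne v) = B u v)
    (h2 : ∀ u v, B (linTwo u) (linTwo v) = B u v) (hr : ∀ u v v', B u (v + v') = B u v + B u v') :
    ∀ u v, B u v = 0 := by
  let Bl : U4 → U4 →+ ZMod 3 := fun v => AddMonoidHom.mk' (fun u => B u v) fun u u' => hl u u' v
  let Br : U4 → U4 →+ ZMod 3 := fun u => AddMonoidHom.mk' (fun v => B u v) (hr u)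
  have hs : ∀ u v, B v u = -B u v := fun u v => by
    have := ha (u + v)
    rw [hl, hr, hr, ha, ha] at this
    linear_combination this
  set c : Fin 6 → ZMod 3 := ![B (unit4 0) (unit4 1), B (unit4 0) (unit4 2), B (unit4 0) (unit4 3),
    B (unit4 1) (unit4 2), B (unit4 1) (unit4 3), B (unit4 2) (unit4 3)] with hc
  have key : ∀ u v, B u v = form2 c u v := by
    intro u v
    have e1 : B u v = form1 (fun i => B (unit4 i) v) u := additive_eq_form1 (Bl v) u
    have e2 : ∀ i, B (unit4 i) v = form1 (fun j => B (unit4 i) (unit4 j)) v :=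
      fun i => additive_eq_form1 (Br (unit4 i)) v
    rw [e1]
    simp only [form1, e2, ha, hs (unit4 0) (unit4 1), hs (unit4 0) (unit4 2),
      hs (unit4 0) (unit4 3), hs (unit4 1) (unit4 2), hs (unit4 1) (unit4 3),
      hs (unit4 2) (unit4 3), form2, hc, Matrix.cons_val]
    ring
  have hz := form2_fixed c (fun i j _ => by rw [← key, ← key, h1])
    (fun i j _ => by rw [← key, ← key, h2])
  intro u v
  rw [key, hz]
  simp [form2]

/-- A linear form composed with a map. -/
def pullForm (L : U4 → U4) (c : U4) : U4 := fun i => form1 c (L (unit4 i))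

theorem form1_linOne (c u : U4) : form1 c (linOne u) = form1 (pullForm linOne c) u := by
  simp [form1, pullForm, linOne, unit4, Matrix.cons_val]
  ring

theorem form1_linTwo (c u : U4) : form1 c (linTwo u) = form1 (pullForm linTwo c) u := by
  simp [form1, pullForm, linTwo, unit4, Matrix.cons_val]
  ring

/-- One step of the closure. -/
def closeStep (l : List U4) : List U4 :=
  ((l ++ l.map (pullForm linOne)) ++ l.map (pullForm linTwo)).dedup

theorem closeStep_sub {S : Finset U4} (h1 : ∀ c ∈ S, pullForm linOne c ∈ S)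
    (h2 : ∀ c ∈ S, pullForm linTwo c ∈ S) {l : List U4} (hl : ∀ c ∈ l, c ∈ S) :
    ∀ c ∈ closeStep l, c ∈ S := by
  intro c hc
  simp only [closeStep, List.mem_dedup, List.mem_append, List.mem_map] at hc
  rcases hc with (hc | ⟨d, hd, rfl⟩) | ⟨d, hd, rfl⟩
  · exact hl c hc
  · exact h1 d (hl d hd)
  · exact h2 d (hl d hd)

theorem iter_sub {S : Finset U4} (h1 : ∀ c ∈ S, pullForm linOne c ∈ S)
    (h2 : ∀ c ∈ S, pullForm linTwo c ∈ S) {c : U4} (hc : c ∈ S) :
    ∀ n, ∀ d ∈ (closeStep^[n]) [c], d ∈ S := by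
  intro n
  induction n with
  | zero => simpa using hc
  | succ n ih =>
    rw [Function.iterate_succ_apply']
    exact closeStep_sub h1 h2 ih

theorem iter_large : ∀ c : U4, c ≠ 0 →
    ((closeStep^[5]) [c]).Nodup ∧ 12 < ((closeStep^[5]) [c]).length := by decide +kernel

/-- An invariant set of linear forms with a nonzero member has more than twelve members. -/
theorem orbit_large {S : Finset U4} (h1 : ∀ c ∈ S, pullForm linOne c ∈ S)
    (h2 : ∀ c ∈ S, pullForm linTwo c ∈ S) {c : U4} (hc : c ∈ S) (h0 : c ≠ 0) : 12 < S.card := by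
  obtain ⟨hn, hl⟩ := iter_large c h0
  have hsub := Finset.card_le_card (s := ((closeStep^[5]) [c]).toFinset) (t := S)
    (fun d hd => iter_sub h1 h2 hc 5 d (List.mem_toFinset.1 hd))
  rw [List.toFinset_card_of_nodup hn] at hsub
  omega

end CfsgLib.LargeFischer85
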