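import Cfsg.Agent.LargeFischer85.Coordinates

/-!
Large Fischer type: the monomial elements in coordinates given by six weight lines.
-/

set_option autoImplicit false

namespace CfsgLib.LargeFischer85

open CfsgLib.U43Mult IsTriAction

theorem sum_zero_card :
    Fintype.card {f : Fin 6 → ZMod 3 // ∑ i, f i = 0} = 243 := by
  let e : {f : Fin 6 → ZMod 3 // ∑ i, f i = 0} ≃ (Fin 5 → ZMod 3) :=
    { toFun := fun f i => f.1 i.succ
      invFun := fun g => ⟨Fin.cons (-∑ i, g i) g, by simp [Fin.sum_univ_succ (n := 5)]⟩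
      left_inv := fun f => Subtype.ext (funext fun i => by
        refine Fin.cases ?_ (fun j => ?_) i
        · have := f.2
          rw [Fin.sum_univ_succ] at this
          exact (eq_neg_of_add_eq_zero_left this).symm
        · exact Fin.cons_succ (α := fun _ => ZMod 3) (-∑ i : Fin 5, f.1 i.succ) (fun i => f.1 i.succ) j)
      right_inv := fun g => funext fun i => by simp }
  rw [Fintype.card_congr e, Fintype.card_fun, ZMod.card, Fintype.card_fin]
  norm_num

variable {B : Type*} [Group B] {π : B →* G9} {c : B} {ℓ : U4 → B} {a : B →* Equiv.Perm V}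
variable {χ : Fin 6 → U4} {s : SL9 →* Equiv.Perm (Fin 6)}

namespace IsLines

variable {ε : Fin 6 → V} (h : IsLines π c ℓ a χ s ε)
include h

theorem exists_expo {A : SL9} {y : B} (hy : π y = psi A) :
    ∃ α : Fin 6 → ZMod 3, ∀ i, a y (ε i) = pw (a c) (α i) (ε (s A i)) := by
  have H : ∀ i, ∃ k, a y (ε i) = pw (a c) k (ε (s A i)) := by
    intro i
    obtain ⟨d, -, e⟩ := h.line_total (s A i) (h.six.move A y hy i _ (h.weight i))
    by_cases h0 : d = 0
    · rw [h0] at e
      exact absurd ((a y).injective (e.trans (map_zero_of_add h.tri y).symm)) (h.ne i)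
    · rw [lineVec, if_neg h0] at e
      exact ⟨_, e⟩
  choose α hα using H
  exact ⟨α, hα⟩

theorem weight_sum (u : U4) : ∑ i, form1 (χ i) u = 0 := by
  have hinv : ∀ (A : SL9) (L : U4 → U4), (∀ v, lin A.1 v = L v) → ∀ v,
      ∑ i, form1 (χ i) (L v) = ∑ i, form1 (χ i) v := by
    intro A L hA v
    obtain ⟨y, hy⟩ := h.lift.surj (psi A⁻¹)
    obtain ⟨t, ht⟩ := exists_shift h.lift hy
    have key : ∀ i, form1 (χ (s A⁻¹ i)) v = form1 (χ i) (L v) + t v := by
      intro i
      have hne : a y (ε i) ≠ 0 :=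
        fun e => h.ne i ((a y).injective (e.trans (map_zero_of_add h.tri y).symm))
      refine h.act.pw_inj hne ((h.six.move A⁻¹ y hy i _ (h.weight i) v).symm.trans ?_)
      show a (ℓ v) _ = _
      rw [act_shift h.lift h.tri ht (h.weight i) v, inv_inv, hA]
    calc ∑ i, form1 (χ i) (L v) = ∑ i, (form1 (χ i) (L v) + t v) := by
          rw [Finset.sum_add_distrib, Finset.sum_const, Finset.card_univ, Fintype.card_fin,
            nsmul_eq_mul, show ((6 : ℕ) : ZMod 3) = 0 from rfl, zero_mul, add_zero]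
      _ = ∑ i, form1 (χ (s A⁻¹ i)) v := Finset.sum_congr rfl fun i _ => (key i).symm
      _ = ∑ i, form1 (χ i) v := Equiv.sum_comp (s A⁻¹) fun i => form1 (χ i) v
  have := no_fun (AddMonoidHom.mk' (fun v => ∑ i, form1 (χ i) v) fun x y => by
      simp only [form1_add, Finset.sum_add_distrib])
    (hinv testOne linOne lin_testOne) (hinv testTwo linTwo lin_testTwo)
  exact DFunLike.congr_fun this u

theorem act_lift (u : U4) (t : ZMod 3) (i : Fin 6) :
    a (ℓ u * cp c t) (ε i) = pw (a c) (form1 (χ i) u + t) (ε i) := by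
  have := h.weight i u
  dsimp only at this
  rw [map_mul, Equiv.Perm.mul_apply, act_cp, act_pw_any h.lift, this, ← h.act.pw_add, add_comm]

theorem ext_of_lines {x y : B} (e : ∀ i, a x (ε i) = a y (ε i)) : x = y := by
  refine h.inj (Equiv.ext fun v => ?_)
  obtain ⟨n, rfl⟩ := h.coord_bijective.2 v
  show AddMonoidHom.mk' (a x) (h.tri.add x) _ = AddMonoidHom.mk' (a y) (h.tri.add y) _
  rw [coordMap, map_sum, map_sum]
  refine Finset.sum_congr rfl fun i _ => ?_
  show a x _ = a y _
  unfold lineVec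
  split
  · rw [map_zero_of_add h.tri, map_zero_of_add h.tri]
  · rw [act_pw_any h.lift, act_pw_any h.lift, e i]

theorem exists_diag (δ : Fin 6 → ZMod 3) (hδ : ∑ i, δ i = 0) :
    ∃ d : B, π d ∈ Set.range xEl ∧ ∀ i, a d (ε i) = pw (a c) (δ i) (ε i) := by
  let f : U4 × ZMod 3 → {f : Fin 6 → ZMod 3 // ∑ i, f i = 0} := fun p =>
    ⟨fun i => form1 (χ i) p.1 + p.2, by
      rw [Finset.sum_add_distrib, h.weight_sum, Finset.sum_const, Finset.card_univ, Fintype.card_fin,
        nsmul_eq_mul, show ((6 : ℕ) : ZMod 3) = 0 from rfl, zero_mul, add_zero]⟩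
  have hπ : ∀ u t, π (ℓ u * cp c t) = xEl u := fun u t => by
    rw [map_mul, cp, map_pow, h.lift.map_c, one_pow, mul_one, h.lift.map_lift]
  have hf : Function.Bijective f := by
    refine (Fintype.bijective_iff_injective_and_card _).2 ⟨fun p r e => ?_, ?_⟩
    · have e' : ℓ p.1 * cp c p.2 = ℓ r.1 * cp c r.2 := h.ext_of_lines fun i => by
        rw [h.act_lift, h.act_lift]
        exact congrArg (fun k => pw (a c) k (ε i)) (congrFun (congrArg Subtype.val e) i)
      have e1 : p.1 = r.1 := xEl_injective (by rw [← hπ, e', hπ])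
      rw [e1] at e'
      exact Prod.ext e1 (cp_inj h.lift.cube h.lift.ne_one (mul_left_cancel e'))
    · rw [sum_zero_card, Fintype.card_prod, Fintype.card_fun, ZMod.card, Fintype.card_fin]
      norm_num
  obtain ⟨⟨u, t⟩, hp⟩ := hf.2 ⟨δ, hδ⟩
  refine ⟨ℓ u * cp c t, ⟨u, (hπ u t).symm⟩, fun i => ?_⟩
  rw [h.act_lift]
  exact congrArg (fun k => pw (a c) k (ε i)) (congrFun (congrArg Subtype.val hp) i)

/-- All even monomial maps with exponents of sum zero occur. -/
theorem exists_mon (σ : Equiv.Perm (Fin 6)) (hσ : Equiv.Perm.sign σ = 1) (δ : Fin 6 → ZMod 3)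
    (hδ : ∑ i, δ i = 0) : ∃ b : B, ∀ i, a b (ε i) = pw (a c) (δ i) (ε (σ i)) := by
  have uniq : ∀ {y : B} {A : SL9} {α β : Fin 6 → ZMod 3},
      (∀ i, a y (ε i) = pw (a c) (α i) (ε (s A i))) →
      (∀ i, a y (ε i) = pw (a c) (β i) (ε (s A i))) → α = β :=
    fun ha hb => funext fun i => h.act.pw_inj (h.ne _) ((ha i).symm.trans (hb i))
  choose y hy using fun A : SL9 => h.lift.surj (psi A)
  choose α hα using fun A => h.exists_expo (hy A)
  have any : ∀ A x, π x = psi A → ∀ β : Fin 6 → ZMod 3,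
      (∀ i, a x (ε i) = pw (a c) (β i) (ε (s A i))) → ∑ i, β i = ∑ i, α A i := by
    intro A x hx β hβ
    obtain ⟨k, hk⟩ := h.lift.ker (x * (y A)⁻¹) (by rw [map_mul, map_inv, hx, hy, mul_inv_cancel])
    have : β = fun i => k + α A i := uniq hβ fun i => by
      rw [show x = cp c k * y A by rw [← hk]; group, map_mul, Equiv.Perm.mul_apply, act_cp, hα,
        ← h.act.pw_add]
    rw [this, Finset.sum_add_distrib, Finset.sum_const, Finset.card_univ, Fintype.card_fin,
      nsmul_eq_mul, show ((6 : ℕ) : ZMod 3) = 0 from rfl, zero_mul, zero_add]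
  let E : SL9 →* Multiplicative (ZMod 3) := MonoidHom.mk' (fun A => Multiplicative.ofAdd (∑ i, α A i))
    fun A A' => by
      rw [← ofAdd_add]
      congr 1
      rw [← any (A * A') (y A * y A') (by rw [map_mul, hy, hy, map_mul])
        (fun i => α A' i + α A (s A' i)) fun i => by
          rw [map_mul, Equiv.Perm.mul_apply, hα, act_pw_any h.lift, hα, ← h.act.pw_add, map_mul]
          rfl]
      rw [Finset.sum_add_distrib, Equiv.sum_comp (s A') (α A), add_comm]
  obtain ⟨A, hA⟩ : σ ∈ s.range := by rw [h.six.range]; exact hσ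
  have hsum : ∑ i, α A i = 0 := DFunLike.congr_fun (sl9_hom_comm E) A
  obtain ⟨d, -, hd⟩ := h.exists_diag (fun i => δ i - α A i)
    (by rw [Finset.sum_sub_distrib, hδ, hsum, sub_zero])
  refine ⟨y A * d, fun i => ?_⟩
  rw [map_mul, Equiv.Perm.mul_apply, hd, act_pw_any h.lift, hα, ← h.act.pw_add, hA, sub_add_cancel]

theorem card_cover : Nat.card B = 3 * 3265920 := by
  have hk : π.ker = Subgroup.zpowers c := by
    refine le_antisymm (fun b hb => ?_) (Subgroup.zpowers_le.2 h.lift.map_c)
    obtain ⟨k, rfl⟩ := h.lift.ker b hb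
    exact Subgroup.npow_mem_zpowers _ _
  have hi : π.ker.index = 3265920 := by
    rw [Subgroup.index_ker, π.range_eq_top_of_surjective h.lift.surj, Subgroup.card_top, card_G9]
  have h3 : orderOf c = 3 := by
    have : Fact (Nat.Prime 3) := ⟨Nat.prime_three⟩
    exact orderOf_eq_prime h.lift.cube h.lift.ne_one
  rw [← π.ker.card_mul_index, hi, hk, Nat.card_zpowers, h3]

/-- Some element moves a line. -/
theorem exists_moving : ∃ (b : B) (i : Fin 6), ∀ j, ¬ HasWeight (a c) (fun u => a (ℓ u)) (χ j) (a b (ε i)) := by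
  classical
  by_contra hno
  push Not at hno
  choose f hf using hno
  have hne : ∀ b i, a b (ε i) ≠ 0 :=
    fun b i e => h.ne i ((a b).injective (e.trans (map_zero_of_add h.tri b).symm))
  have fu : ∀ {b i j}, HasWeight (a c) (fun u => a (ℓ u)) (χ j) (a b (ε i)) → f b i = j :=
    fun {b i j} hw => h.six.inj (h.act.weight_unique (hne b i) (hf b i) hw)
  have hmul : ∀ b b' i, f (b * b') i = f b (f b' i) := fun b b' i => fu (by
    obtain ⟨d, -, e⟩ := h.line_total (f b' i) (hf b' i)
    rw [map_mul, Equiv.Perm.mul_apply, e]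
    unfold lineVec
    split
    · rw [map_zero_of_add h.tri]
      exact h.act.weight_zero _
    · rw [act_pw_any h.lift]
      exact h.act.weight_pw (hf b _) _)
  have hone : ∀ i, f 1 i = i := fun i => fu (by
    rw [map_one, Equiv.Perm.one_apply]; exact h.weight i)
  let T : B →* Equiv.Perm (Fin 6) := MonoidHom.mk'
    (fun b => ⟨f b, f b⁻¹, fun i => by rw [← hmul, inv_mul_cancel, hone],
      fun i => by rw [← hmul, mul_inv_cancel, hone]⟩) fun b b' => Equiv.ext (hmul b b')
  have hle : π.ker ≤ T.ker := by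
    intro b hb
    obtain ⟨k, rfl⟩ := h.lift.ker b hb
    refine Equiv.ext fun i => fu ?_
    rw [act_cp]
    exact h.act.weight_pw (h.weight i) k
  let F : G9 →* Equiv.Perm (Fin 6) := π.liftOfSurjective h.lift.surj ⟨T, hle⟩
  have hF : ∀ b, F (π b) = T b := fun b =>
    MonoidHom.liftOfRightInverse_comp_apply π _ (Function.rightInverse_surjInv h.lift.surj) ⟨T, hle⟩ b
  have hker : F.ker = ⊤ := by
    refine (Subgroup.Normal.eq_bot_or_eq_top inferInstance).resolve_left fun hb => ?_
    have := Nat.card_le_card_of_injective F ((MonoidHom.ker_eq_bot_iff F).1 hb)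
    rw [card_G9, Nat.card_eq_fintype_card, Fintype.card_perm, Fintype.card_fin] at this
    norm_num [Nat.factorial] at this
  have hT : ∀ b i, f b i = i := by
    intro b i
    have h2 : π b ∈ F.ker := hker ▸ Subgroup.mem_top _
    rw [MonoidHom.mem_ker, hF] at h2
    exact DFunLike.congr_fun h2 i
  obtain ⟨b, hb⟩ := h.exists_mon (Equiv.swap 0 1 * Equiv.swap 2 3) (by decide +kernel) 0
    (by simp)
  have h0 : f b 0 = 1 := fu (by
    rw [hb 0, show (Equiv.swap 0 1 * Equiv.swap 2 3 : Equiv.Perm (Fin 6)) 0 = 1 by decide +kernel]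
    exact h.act.weight_pw (h.weight 1) _)
  rw [hT] at h0
  exact absurd h0 (by decide)

end IsLines

end CfsgLib.LargeFischer85
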