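import Cfsg.Agent.LargeFischer85.Weights

/-!
Large Fischer type: the unitary group in dimension four over nine elements acts trivially on binary
spaces with at most `4096` vectors.
-/

set_option autoImplicit false

namespace CfsgLib.LargeFischer85

open CfsgLib.U43Mult IsTriAction

theorem xEl_zero : xEl 0 = 1 := by
  have h := xEl_add 0 0
  rw [add_zero] at h
  exact left_eq_mul.1 h

theorem linOne_surjective : ∀ v : U4, ∃ u, linOne u = v := by
  have h : Function.Injective linOne := by
    intro a b e
    apply xEl_injective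
    have e2 := congrArg xEl e
    rw [← lin_testOne, ← lin_testOne, ← psi_conj, ← psi_conj] at e2
    simpa using e2
  exact Finite.surjective_of_injective h

theorem linTwo_surjective : ∀ v : U4, ∃ u, linTwo u = v := by
  have h : Function.Injective linTwo := by
    intro a b e
    apply xEl_injective
    have e2 := congrArg xEl e
    rw [← lin_testTwo, ← lin_testTwo, ← psi_conj, ← psi_conj] at e2
    simpa using e2
  exact Finite.surjective_of_injective h

section Double

variable {W : Type*} [AddCommGroup W]

/-- The diagonal action on pairs. -/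
noncomputable def dbl (f : G9 →* Equiv.Perm W) (g : G9) (p : W × W) : W × W := (f g p.1, f g p.2)

/-- The element of order three on pairs. -/
def dblOm (p : W × W) : W × W := (p.2, p.1 + p.2)

theorem dbl_mul (f : G9 →* Equiv.Perm W) (g g' : G9) (p : W × W) :
    dbl f (g * g') p = dbl f g (dbl f g' p) := by
  simp only [dbl, map_mul, Equiv.Perm.mul_apply]

theorem dbl_one (f : G9 →* Equiv.Perm W) (p : W × W) : dbl f 1 p = p := by
  simp only [dbl, map_one, Equiv.Perm.one_apply]

theorem dbl_om (f : G9 →* Equiv.Perm W) (hf : ∀ g x y, f g (x + y) = f g x + f g y) (g : G9)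
    (p : W × W) : dbl f g (dblOm p) = dblOm (dbl f g p) := Prod.ext rfl (hf g _ _)

theorem dbl_pw (f : G9 →* Equiv.Perm W) (hf : ∀ g x y, f g (x + y) = f g x + f g y) (g : G9)
    (k : ZMod 3) (p : W × W) : dbl f g (pw dblOm k p) = pw dblOm k (dbl f g p) := by
  fin_cases k
  · rfl
  · exact dbl_om f hf g p
  · exact (dbl_om f hf g _).trans (congrArg dblOm (dbl_om f hf g p))

theorem dbl_isTriAction (h2 : ∀ x : W, x + x = 0) (f : G9 →* Equiv.Perm W)
    (hf : ∀ g x y, f g (x + y) = f g x + f g y) :
    IsTriAction dblOm fun u => dbl f (xEl u) where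
  two p := Prod.ext (h2 _) (h2 _)
  om_add x y := Prod.ext rfl (add_add_add_comm x.1 y.1 x.2 y.2)
  om_sq x := Prod.ext (add_comm _ _) (add_comm _ _)
  act_add u x y := Prod.ext (hf _ _ _) (hf _ _ _)
  act_zero x := by rw [xEl_zero, dbl_one]
  act_comp u v x := by rw [xEl_add, dbl_mul]
  act_om u x := dbl_om f hf _ x

theorem pullForm_mem_weights (f : G9 →* Equiv.Perm W)
    (hf : ∀ g x y, f g (x + y) = f g x + f g y) (A : SL9) (L : U4 → U4)
    (hA : ∀ u, lin A.1 u = L u) (hL : ∀ d u, form1 d (L u) = form1 (pullForm L d) u) {d : U4}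
    (hd : d ∈ IsTriAction.weights dblOm fun u => dbl f (xEl u)) :
    pullForm L d ∈ IsTriAction.weights dblOm fun u => dbl f (xEl u) := by
  obtain ⟨x, hx, hdx⟩ := hd
  refine ⟨dbl f (psi A)⁻¹ x, fun h => hx ?_, fun u => ?_⟩
  · have e : dbl f (psi A) (dbl f (psi A)⁻¹ x) = x := by
      rw [← dbl_mul, mul_inv_cancel, dbl_one]
    rw [← e, h]
    exact Prod.ext (map_zero (AddMonoidHom.mk' (f (psi A)) (hf _)))
      (map_zero (AddMonoidHom.mk' (f (psi A)) (hf _)))
  · have e := hdx (L u)
    rw [hL d u] at e
    dsimp only at e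
    show dbl f (xEl u) (dbl f (psi A)⁻¹ x) = _
    rw [← dbl_mul, show xEl u * (psi A)⁻¹ = (psi A)⁻¹ * xEl (L u) by rw [← hA, ← psi_conj]; group,
      dbl_mul, e, dbl_pw f hf]

/-- The unitary group acts trivially on small binary spaces. -/
theorem hom_eq_one [Finite W] (h2 : ∀ x : W, x + x = 0) (hW : Nat.card W ≤ 4096)
    (f : G9 →* Equiv.Perm W) (hf : ∀ g x y, f g (x + y) = f g x + f g y) : f = 1 := by
  classical
  have hT := dbl_isTriAction h2 f hf
  have hcard : Nat.card (W × W) ≤ 4096 * 4096 := by
    rw [Nat.card_prod]; exact Nat.mul_le_mul hW hW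
  have hzero : ∀ c, c ∈ IsTriAction.weights dblOm (fun u => dbl f (xEl u)) → c = 0 := by
    intro c hc
    by_contra h0
    let S : Finset U4 := Finset.univ.filter fun d =>
      d ∈ IsTriAction.weights dblOm fun u => dbl f (xEl u)
    have hlarge := orbit_large (S := S)
      (fun d hd => Finset.mem_filter.2 ⟨Finset.mem_univ _, pullForm_mem_weights f hf testOne linOne
        lin_testOne form1_linOne (Finset.mem_filter.1 hd).2⟩)
      (fun d hd => Finset.mem_filter.2 ⟨Finset.mem_univ _, pullForm_mem_weights f hf testTwo linTwo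
        lin_testTwo form1_linTwo (Finset.mem_filter.1 hd).2⟩)
      (c := c) (Finset.mem_filter.2 ⟨Finset.mem_univ _, hc⟩) h0
    have hle := (hT.four_pow_le S fun d hd => (Finset.mem_filter.1 hd).2).trans hcard
    have : 4 ^ 13 ≤ 4 ^ S.card := Nat.pow_le_pow_right (by norm_num) hlarge
    have h13 := this.trans hle
    norm_num at h13
  have hker : ∀ u, f (xEl u) = 1 := by
    intro u
    refine Equiv.ext fun w => ?_
    have e : dbl f (xEl u) (w, w) = (w, w) := by
      have key := hT.eq_sum_of_weights (S := ({0} : Finset U4))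
        (fun c hc => Finset.mem_singleton.2 (hzero c hc)) (w, w)
      rw [Finset.sum_singleton] at key
      conv_lhs => rw [key]
      exact ((hT.proj_hasWeight 0 (w, w) u).trans (by
        rw [show form1 0 u = 0 by simp [form1]]; rfl)).trans key.symm
    exact congrArg Prod.fst e
  have hne : f.ker ≠ ⊥ := by
    intro hb
    have : xEl (unit4 0) = 1 := by
      rw [← Subgroup.mem_bot, ← hb]
      exact hker _
    have := xEl_injective (this.trans xEl_zero.symm)
    exact absurd (congrFun this 0) (by decide +kernel)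
  have htop : f.ker = ⊤ := (Subgroup.Normal.eq_bot_or_eq_top inferInstance).resolve_left hne
  exact MonoidHom.ext fun g => (htop ▸ Subgroup.mem_top g : g ∈ f.ker)

end Double

end CfsgLib.LargeFischer85
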