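import Cfsg.Agent.LargeFischer85.Lifts
import Cfsg.Agent.Classical.Linear.Card

/-!
Large Fischer type: the weights of `3^4` on a binary module with at most `4096` vectors, and their
permutations by `PSL(2, 9)`.
-/

set_option autoImplicit false

namespace CfsgLib.LargeFischer85

open CfsgLib.U43Mult IsTriAction

variable {B : Type*} [Group B] {π : B →* G9} {c : B} {ℓ : U4 → B}
variable {W : Type*} [AddCommGroup W] {a : B →* Equiv.Perm W}

/-- A small binary module on which the kernel of the cover has no fixed point. -/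
structure IsTriModule (c : B) (a : B →* Equiv.Perm W) : Prop where
  two : ∀ x : W, x + x = 0
  add : ∀ b x y, a b (x + y) = a b x + a b y
  sq : ∀ x, a c (a c x) = a c x + x

theorem map_zero_of_add (h : IsTriModule c a) (b : B) : a b 0 = 0 :=
  map_zero (AddMonoidHom.mk' (a b) (h.add b))

theorem IsLift.map_zero' (hℓ : IsLift π c ℓ) : ℓ 0 = 1 := by
  have h := hℓ.map_add 0 0
  rw [add_zero] at h
  exact left_eq_mul.1 h

theorem tri_act (hℓ : IsLift π c ℓ) (h : IsTriModule c a) :
    IsTriAction (a c) fun u => a (ℓ u) where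
  two := h.two
  om_add := h.add c
  om_sq := h.sq
  act_add u := h.add (ℓ u)
  act_zero x := by simp [hℓ.map_zero']
  act_comp u v x := by simp [hℓ.map_add]
  act_om u x := by simp [← Equiv.Perm.mul_apply, ← map_mul, (hℓ.central (ℓ u)).eq]

theorem act_cp (k : ZMod 3) (x : W) : a (cp c k) x = pw (a c) k x := by
  fin_cases k
  · show a (c ^ 0) x = x
    simp
  · show a (c ^ 1) x = a c x
    simp
  · show a (c ^ 2) x = a c (a c x)
    simp [pow_two]

theorem act_pw_any (hℓ : IsLift π c ℓ) (b : B) (k : ZMod 3) (x : W) :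
    a b (pw (a c) k x) = pw (a c) k (a b x) := by
  rw [← act_cp, ← act_cp, ← Equiv.Perm.mul_apply, ← map_mul, ← Equiv.Perm.mul_apply, ← map_mul,
    (show Commute (cp c k) b from (hℓ.central b).pow_left _).eq]

/-- The exponent by which a lift moves the lifts of order three. -/
theorem exists_shift (hℓ : IsLift π c ℓ) {A : SL9} {y : B} (hy : π y = psi A) :
    ∃ t : U4 → ZMod 3, ∀ u, y⁻¹ * ℓ u * y = ℓ (lin (A⁻¹ : SL9).1 u) * cp c (t u) := by
  have hy' : π y⁻¹ = psi A⁻¹ := by rw [map_inv, hy, map_inv]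
  have H := fun u => exists_conj_lift (c := c) (A := A⁻¹) hℓ.map_lift hℓ.ker hy' u
  simp only [inv_inv] at H
  choose t ht using H
  exact ⟨t, ht⟩

theorem act_shift (hℓ : IsLift π c ℓ) (h : IsTriModule c a) {A : SL9} {y : B}
    {t : U4 → ZMod 3} (ht : ∀ u, y⁻¹ * ℓ u * y = ℓ (lin (A⁻¹ : SL9).1 u) * cp c (t u))
    {χ : U4} {x : W} (hx : HasWeight (a c) (fun u => a (ℓ u)) χ x) (u : U4) :
    a (ℓ u) (a y x) = pw (a c) (form1 χ (lin (A⁻¹ : SL9).1 u) + t u) (a y x) := by
  have e : ℓ u * y = y * (ℓ (lin (A⁻¹ : SL9).1 u) * cp c (t u)) := by rw [← ht]; group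
  have hx' := hx (lin (A⁻¹ : SL9).1 u)
  dsimp only at hx'
  rw [← Equiv.Perm.mul_apply, ← map_mul, e, map_mul, map_mul, Equiv.Perm.mul_apply,
    Equiv.Perm.mul_apply, act_cp, act_pw_any hℓ, hx', ← (tri_act hℓ h).pw_add, act_pw_any hℓ,
    add_comm]

/-- Lifts of the special linear group move every weight space into one weight space. -/
theorem exists_moved (hℓ : IsLift π c ℓ) (h : IsTriModule c a) {A : SL9} {y : B}
    (hy : π y = psi A) {χ : U4} (hχ : χ ∈ weights (a c) fun u => a (ℓ u)) :
    ∃ χ' ∈ weights (a c) (fun u => a (ℓ u)), ∀ x, HasWeight (a c) (fun u => a (ℓ u)) χ x →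
      HasWeight (a c) (fun u => a (ℓ u)) χ' (a y x) := by
  obtain ⟨t, ht⟩ := exists_shift hℓ hy
  obtain ⟨x, hx, hxw⟩ := hχ
  have hT := tri_act hℓ h
  have hne : a y x ≠ 0 := fun e => hx ((a y).injective (e.trans (map_zero_of_add h y).symm))
  obtain ⟨χ', hχ'⟩ := hT.exists_weight hne fun u => ⟨_, act_shift hℓ h ht hxw u⟩
  refine ⟨χ', ⟨_, hne, hχ'⟩, fun w hw u => ?_⟩
  show a (ℓ u) (a y w) = _
  rw [act_shift hℓ h ht hw u]
  have hk := hT.pw_inj hne ((act_shift hℓ h ht hxw u).symm.trans (hχ' u))
  rw [hk]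

theorem sl9_commutator : commutator SL9 = ⊤ :=
  Classical.Linear.commutator_sl_fin_eq_top 2 fun _ =>
    Classical.Linear.exists_sq_ne_one_of_four_le (by
      rw [Nat.card_eq_fintype_card, GF9.card_eq]; norm_num)

theorem sl9_hom_comm {M : Type*} [CommGroup M] (f : SL9 →* M) : f = 1 := by
  refine MonoidHom.ext fun g => ?_
  have h : commutator SL9 ≤ f.ker := by
    rw [commutator_def, Subgroup.commutator_le]
    intro a _ b _
    rw [MonoidHom.mem_ker, map_commutatorElement, commutatorElement_eq_one_iff_mul_comm, mul_comm]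
  rw [sl9_commutator] at h
  exact h (Subgroup.mem_top g)

theorem sl9_card : Nat.card SL9 = 720 := by
  rw [Classical.Linear.card_sl_two, GF9.card_eq]; norm_num

theorem sl9_center_card : Nat.card (Subgroup.center SL9) = 2 := by
  rw [Classical.Linear.center_sl_card, GF9.card_eq]
  rfl

theorem sl9_ker_cases {M : Type*} [Group M] (f : SL9 →* M) :
    f = 1 ∨ 360 ≤ Nat.card f.range := by
  rcases Classical.Linear.normal_le_center_or_eq_top sl9_commutator f.ker with h | h
  · refine .inr ?_
    have h1 : Nat.card f.ker ≤ 2 := (Subgroup.card_le_of_le h).trans sl9_center_card.le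
    have h2 := f.ker.card_mul_index
    rw [Subgroup.index_ker, sl9_card] at h2
    nlinarith
  · exact .inl (MonoidHom.ext fun g => (h ▸ Subgroup.mem_top g : g ∈ f.ker))

theorem perm_six (M : Subgroup (Equiv.Perm (Fin 6))) (h : M ≤ alternatingGroup (Fin 6))
    (hc : 360 ≤ Nat.card M) : M = alternatingGroup (Fin 6) := by
  refine Subgroup.eq_of_le_of_card_ge h (le_of_eq_of_le ?_ hc)
  rw [nat_card_alternatingGroup, Nat.card_eq_fintype_card, Fintype.card_fin]
  rfl

/-- The coordinates on a module of `4096` vectors. -/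
structure IsSixWeights (π : B →* G9) (c : B) (ℓ : U4 → B) (a : B →* Equiv.Perm W) (χ : Fin 6 → U4)
    (s : SL9 →* Equiv.Perm (Fin 6)) : Prop where
  card_eq : Nat.card W = 4096
  inj : Function.Injective χ
  mem : ∀ i, χ i ∈ weights (a c) fun u => a (ℓ u)
  all : ∀ d, d ∈ weights (a c) (fun u => a (ℓ u)) → ∃ i, χ i = d
  space_card : ∀ i, Nat.card (space (a c) (fun u => a (ℓ u)) (χ i)) = 4
  move : ∀ A y, π y = psi A → ∀ i x, HasWeight (a c) (fun u => a (ℓ u)) (χ i) x →
    HasWeight (a c) (fun u => a (ℓ u)) (χ (s A i)) (a y x)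
  range : s.range = alternatingGroup (Fin 6)

/-- Either a lift of an element of order three acts trivially, or there are six weight lines. -/
theorem tri_dichotomy [Finite W] (hℓ : IsLift π c ℓ) (h : IsTriModule c a)
    (hne : ∃ x : W, x ≠ 0) (hW : Nat.card W ≤ 4096) :
    (∃ d, π d ≠ 1 ∧ ∀ x, a d x = x) ∨ ∃ χ s, IsSixWeights π c ℓ a χ s := by
  classical
  have hT := tri_act hℓ h
  let Wt := weights (a c) fun u => a (ℓ u)
  choose lift hlift using fun A : SL9 => hℓ.surj (psi A)
  choose mv hmv hmove using fun (A : SL9) (χ : Wt) => exists_moved hℓ h (hlift A) χ.2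
  have uniq : ∀ {χ d e : U4}, χ ∈ Wt → ∀ (b : B),
      (∀ x, HasWeight (a c) (fun u => a (ℓ u)) χ x → HasWeight (a c) (fun u => a (ℓ u)) d (a b x)) →
      (∀ x, HasWeight (a c) (fun u => a (ℓ u)) χ x → HasWeight (a c) (fun u => a (ℓ u)) e (a b x)) →
      d = e := by
    rintro χ d e ⟨x, hx, hxw⟩ b hd he
    exact hT.weight_unique (fun e0 => hx ((a b).injective (e0.trans (map_zero_of_add h b).symm)))
      (hd x hxw) (he x hxw)
  have any : ∀ A y, π y = psi A → ∀ (χ : Wt) x, HasWeight (a c) (fun u => a (ℓ u)) χ.1 x →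
      HasWeight (a c) (fun u => a (ℓ u)) (mv A χ) (a y x) := by
    intro A y hy χ x hx
    obtain ⟨k, hk⟩ := hℓ.ker ((lift A)⁻¹ * y) (by rw [map_mul, map_inv, hlift, hy, inv_mul_cancel])
    have e : y = lift A * cp c k := by rw [← hk]; group
    rw [e, map_mul, Equiv.Perm.mul_apply, act_cp]
    exact hmove A χ _ (hT.weight_pw hx k)
  let f : SL9 → Wt → Wt := fun A χ => ⟨mv A χ, hmv A χ⟩
  have fmul : ∀ A A' χ, f (A * A') χ = f A (f A' χ) := by
    intro A A' χ
    refine Subtype.ext (uniq χ.2 (lift A * lift A') (any _ _ (by rw [map_mul, hlift, hlift, map_mul]) χ) ?_)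
    intro x hx
    rw [map_mul, Equiv.Perm.mul_apply]
    exact hmove A (f A' χ) _ (hmove A' χ x hx)
  have fone : ∀ χ, f 1 χ = χ := by
    intro χ
    refine Subtype.ext (uniq χ.2 1 (any 1 1 (by rw [map_one, map_one]) χ) fun x hx => ?_)
    rwa [map_one, Equiv.Perm.one_apply]
  let s0 : SL9 →* Equiv.Perm Wt := MonoidHom.mk'
    (fun A => ⟨f A, f A⁻¹, fun χ => by rw [← fmul, inv_mul_cancel, fone],
      fun χ => by rw [← fmul, mul_inv_cancel, fone]⟩)
    fun A A' => Equiv.ext (fmul A A')
  obtain ⟨x0, hx0⟩ := hne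
  obtain ⟨χ0, hχ0⟩ := hT.exists_weights_nonempty hx0
  rcases sl9_ker_cases s0 with htriv | hbig
  · refine .inl ?_
    have hfix : ∀ A χ, (mv A χ : U4) = χ.1 := fun A χ =>
      congrArg Subtype.val (DFunLike.congr_fun (DFunLike.congr_fun htriv A) χ :)
    have hsame : ∀ χ : Wt, χ.1 = χ0 := by
      intro χ
      have hinv : ∀ (A : SL9) (L : U4 → U4), (∀ u, lin A.1 u = L u) →
          ∀ u, form1 (χ.1 - χ0) (L u) = form1 (χ.1 - χ0) u := by
        intro A L hA u
        obtain ⟨t, ht⟩ := exists_shift hℓ (hlift A⁻¹)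
        have key : ∀ ψ : Wt, form1 ψ.1 u = form1 ψ.1 (L u) + t u := by
          intro ψ
          obtain ⟨x, hx, hxw⟩ := ψ.2
          have hne : a (lift A⁻¹) x ≠ 0 :=
            fun e => hx ((a _).injective (e.trans (map_zero_of_add h _).symm))
          have hw : HasWeight (a c) (fun u => a (ℓ u)) ψ.1 (a (lift A⁻¹) x) :=
            hfix A⁻¹ ψ ▸ hmove A⁻¹ ψ x hxw
          refine hT.pw_inj hne ((hw u).symm.trans ?_)
          show a (ℓ u) _ = _
          rw [act_shift hℓ h ht hxw u, inv_inv, hA]
        rw [form1_sub, form1_sub, key χ, key ⟨χ0, hχ0⟩]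
        ring
      have h0 := no_fun (AddMonoidHom.mk' (form1 (χ.1 - χ0)) (form1_add _))
        (hinv testOne linOne lin_testOne) (hinv testTwo linTwo lin_testTwo)
      refine sub_eq_zero.1 (funext fun i => ?_)
      rw [← form1_unit (χ.1 - χ0) i]
      exact DFunLike.congr_fun h0 (unit4 i)
    have hall : ∀ x, HasWeight (a c) (fun u => a (ℓ u)) χ0 x := by
      intro x
      rw [hT.eq_sum_of_weights (S := {χ0}) (fun d hd => Finset.mem_singleton.2 (hsame ⟨d, hd⟩)) x,
        Finset.sum_singleton]
      exact hT.proj_hasWeight χ0 x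
    refine ⟨ℓ (unit4 0) * cp c (-form1 χ0 (unit4 0)), ?_, fun x => ?_⟩
    · rw [map_mul, show π (cp c (-form1 χ0 (unit4 0))) = 1 by rw [cp, map_pow, hℓ.map_c, one_pow],
        mul_one, hℓ.map_lift, ← xEl_zero]
      exact fun e => absurd (congrFun (xEl_injective e) 0) (by decide +kernel)
    · have := hall x (unit4 0)
      dsimp only at this
      rw [map_mul, Equiv.Perm.mul_apply, act_cp, act_pw_any hℓ, this, ← hT.pw_add,
        neg_add_cancel, pw_zero]
  · refine .inr ?_
    haveI : Fintype Wt := Fintype.ofFinite _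
    have hpow : 4 ^ Fintype.card Wt ≤ Nat.card W := by
      have := hT.four_pow_le (Finset.univ.filter fun d => d ∈ Wt)
        fun d hd => (Finset.mem_filter.1 hd).2
      rwa [← Fintype.card_subtype] at this
    have hle : Fintype.card Wt ≤ 6 :=
      (Nat.pow_le_pow_iff_right (by norm_num : 1 < 4)).1 (hpow.trans (hW.trans_eq (by norm_num)))
    have hfac : 360 ≤ (Fintype.card Wt).factorial := by
      refine hbig.trans ((Subgroup.card_le_card_group _).trans_eq ?_)
      rw [Nat.card_eq_fintype_card, Fintype.card_perm]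
    have h6 : Fintype.card Wt = 6 := by
      rcases Nat.lt_or_ge (Fintype.card Wt) 6 with h5 | h5
      · have := Nat.factorial_le (show Fintype.card Wt ≤ 5 by omega)
        rw [show Nat.factorial 5 = 120 from rfl] at this
        omega
      · omega
    have hcard : Nat.card W = 4096 := le_antisymm hW (by rw [h6] at hpow; simpa using hpow)
    let e : Fin 6 ≃ Wt := (Fintype.equivFinOfCardEq h6).symm
    let s : SL9 →* Equiv.Perm (Fin 6) := e.symm.permCongrHom.toMonoidHom.comp s0
    refine ⟨fun i => (e i).1, s, hcard, fun i j hij => e.injective (Subtype.ext hij), fun i => (e i).2,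
      fun d hd => ⟨e.symm ⟨d, hd⟩, by rw [Equiv.apply_symm_apply]⟩, ?_, ?_, ?_⟩
    · intro i
      have hinj : Function.Injective fun f : (j : Fin 6) → space (a c) (fun u => a (ℓ u)) (e j).1 =>
          ∑ j, (f j).1 := by
        intro f g hfg
        funext j
        apply Subtype.ext
        let P : W →+ W := AddMonoidHom.mk' (proj (a c) (fun u => a (ℓ u)) (e j).1) (hT.proj_add _)
        have key : ∀ k : (j : Fin 6) → space (a c) (fun u => a (ℓ u)) (e j).1,
            P (∑ j, (k j).1) = (k j).1 := by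
          intro k
          rw [map_sum, Finset.sum_eq_single j]
          · exact (hT.proj_of_weight (k j).2).trans (if_pos rfl)
          · intro l _ hl
            exact (hT.proj_of_weight (k l).2).trans
              (if_neg fun q => hl (e.injective (Subtype.ext q.symm)))
          · simp
        rw [← key f, ← key g]
        exact congrArg P hfg
      have hprod := Nat.card_le_card_of_injective _ hinj
      rw [Nat.card_pi, hcard, Fin.prod_univ_six] at hprod
      have h4 := fun j => hT.four_le_space (e j).2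
      generalize hn : (fun j => Nat.card (space (a c) (fun u => a (ℓ u)) (e j).1)) = n
      have hn' : ∀ j, Nat.card (space (a c) (fun u => a (ℓ u)) (e j).1) = n j := fun j => congrFun hn j
      simp only [hn'] at hprod h4 ⊢
      by_contra hne4
      have h5 : 5 ≤ n i := by have := h4 i; omega
      have hbig : (∏ j, if j = i then 5 else 4) ≤ ∏ j, n j :=
        Finset.prod_le_prod (fun j _ => Nat.zero_le _) fun j _ => by
          by_cases hj : j = i
          · rw [if_pos hj, hj]; exact h5
          · rw [if_neg hj]; exact h4 j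
      have hval : ∀ i : Fin 6, (∏ j, if j = i then 5 else 4) = 5120 := by decide +kernel
      rw [hval, Fin.prod_univ_six] at hbig
      omega
    · intro A y hy i x hx
      have : e (s A i) = s0 A (e i) := by simp [s, Equiv.permCongrHom]
      show HasWeight _ _ (e (s A i)).1 _
      rw [this]
      exact any A y hy (e i) x hx
    · refine perm_six _ ?_ ?_
      · rintro _ ⟨A, rfl⟩
        exact DFunLike.congr_fun (sl9_hom_comm (Equiv.Perm.sign.comp s)) A
      · rw [MonoidHom.range_comp, Subgroup.card_map_of_injective e.symm.permCongrHom.injective]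
        exact hbig

end CfsgLib.LargeFischer85
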