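import Cfsg.Agent.LargeFischer85.ModelFacts

/-!
Large Fischer type: weight spaces of an elementary abelian group of order 81 acting on a binary
space with a fixed-point-free element of order three.
-/

set_option autoImplicit false

namespace CfsgLib.LargeFischer85

/-- An action of `U4` commuting with a fixed-point-free element of order three. -/
structure IsTriAction {W : Type*} [AddCommGroup W] (Ω : W → W) (ρ : U4 → W → W) : Prop where
  two : ∀ x : W, x + x = 0
  om_add : ∀ x y, Ω (x + y) = Ω x + Ω y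
  om_sq : ∀ x, Ω (Ω x) = Ω x + x
  act_add : ∀ u x y, ρ u (x + y) = ρ u x + ρ u y
  act_zero : ∀ x, ρ 0 x = x
  act_comp : ∀ u v x, ρ (u + v) x = ρ u (ρ v x)
  act_om : ∀ u x, ρ u (Ω x) = Ω (ρ u x)

variable {W : Type*} [AddCommGroup W] {Ω : W → W} {ρ : U4 → W → W}

/-- The powers of the element of order three. -/
def pw (Ω : W → W) (k : ZMod 3) (x : W) : W := Ω^[k.val] x

theorem form1_add (c u v : U4) : form1 c (u + v) = form1 c u + form1 c v := by
  simp only [form1, Pi.add_apply]; ring

theorem form1_comm (c u : U4) : form1 c u = form1 u c := by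
  simp only [form1]; ring

theorem form1_sub (c d u : U4) : form1 (c - d) u = form1 c u - form1 d u := by
  simp only [form1, Pi.sub_apply]; ring

theorem form1_separates : ∀ d : U4, d ≠ 0 → ∃ i, form1 d (unit4 i) ≠ 0 := by decide +kernel

theorem form1_unit : ∀ (c : U4) (i : Fin 4), form1 c (unit4 i) = c i := by decide +kernel

namespace IsTriAction

variable (h : IsTriAction Ω ρ)
include h

theorem om_zero : Ω 0 = 0 := by
  have := h.om_add 0 0
  rw [add_zero] at this
  exact left_eq_add.1 this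

theorem act_map_zero (u : U4) : ρ u 0 = 0 := by
  have := h.act_add u 0 0
  rw [add_zero] at this
  exact left_eq_add.1 this

theorem om_cube (x : W) : Ω (Ω (Ω x)) = x := by
  rw [h.om_sq x, h.om_add, h.om_sq x, add_right_comm, h.two, zero_add]

omit h in
theorem pw_zero (x : W) : pw Ω 0 x = x := rfl

omit h in
theorem pw_one (x : W) : pw Ω 1 x = Ω x := rfl

theorem pw_add (a b : ZMod 3) (x : W) : pw Ω (a + b) x = pw Ω a (pw Ω b x) := by
  have h3 := h.om_cube
  fin_cases a <;> fin_cases b <;> first | rfl | exact (h3 _).symm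

theorem pw_map_add (a : ZMod 3) (x y : W) : pw Ω a (x + y) = pw Ω a x + pw Ω a y := by
  fin_cases a
  · rfl
  · exact h.om_add x y
  · show Ω (Ω (x + y)) = Ω (Ω x) + Ω (Ω y)
    rw [h.om_add, h.om_add]

theorem pw_map_zero (a : ZMod 3) : pw Ω a (0 : W) = 0 := by
  fin_cases a
  · rfl
  · exact h.om_zero
  · show Ω (Ω 0) = 0
    rw [h.om_zero, h.om_zero]

theorem act_pw (u : U4) (a : ZMod 3) (x : W) : ρ u (pw Ω a x) = pw Ω a (ρ u x) := by
  fin_cases a
  · rfl
  · exact h.act_om u x
  · show ρ u (Ω (Ω x)) = Ω (Ω (ρ u x))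
    rw [h.act_om, h.act_om]

theorem eq_zero_of_om {x : W} (hx : Ω x = x) : x = 0 := by
  have := h.om_sq x
  rw [hx, hx] at this
  exact left_eq_add.1 this

theorem pw_inj {a b : ZMod 3} {x : W} (hx : x ≠ 0) (hab : pw Ω a x = pw Ω b x) : a = b := by
  by_contra hne
  have e : pw Ω (a - b) x = x := by
    rw [sub_eq_neg_add, h.pw_add, hab, ← h.pw_add, neg_add_cancel, pw_zero]
  have hd : a - b = 1 ∨ a - b = 2 := by
    revert hne
    generalize a = p
    generalize b = r
    revert p r
    decide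
  rcases hd with hd | hd <;> rw [hd] at e
  · exact hx (h.eq_zero_of_om e)
  · exact hx (h.eq_zero_of_om (by rw [← congrArg Ω e]; exact h.om_cube x))

/-- The characters sum to zero away from zero. -/
theorem sum_pw_form (d : U4) (hd : d ≠ 0) (x : W) : ∑ u : U4, pw Ω (form1 d u) x = 0 := by
  obtain ⟨i, hi⟩ := form1_separates d hd
  let P : W →+ W := AddMonoidHom.mk' (pw Ω (form1 d (unit4 i))) (h.pw_map_add _)
  have hfix : pw Ω (form1 d (unit4 i)) (∑ u : U4, pw Ω (form1 d u) x) =
      ∑ u : U4, pw Ω (form1 d u) x := by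
    show P _ = _
    rw [map_sum]
    refine Fintype.sum_equiv (Equiv.addLeft (unit4 i)) _ _ fun u => ?_
    show pw Ω _ (pw Ω _ x) = pw Ω (form1 d (unit4 i + u)) x
    rw [← h.pw_add, form1_add]
  by_contra hne
  exact hi (h.pw_inj hne (hfix.trans (pw_zero _).symm))

theorem sum_pw_same (x : W) : ∑ _u : U4, x = x := by
  rw [Finset.sum_const, Finset.card_univ, show Fintype.card U4 = 2 * 40 + 1 from rfl, add_smul,
    one_smul, mul_smul, two_nsmul, h.two, zero_add]

omit h in
/-- The projection on a weight space. -/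
def proj (Ω : W → W) (ρ : U4 → W → W) (c : U4) (x : W) : W :=
  ∑ u : U4, pw Ω (-form1 c u) (ρ u x)

omit h in
/-- Being of a given weight. -/
def HasWeight (Ω : W → W) (ρ : U4 → W → W) (c : U4) (x : W) : Prop :=
  ∀ u, ρ u x = pw Ω (form1 c u) x

theorem proj_hasWeight (c : U4) (x : W) : HasWeight Ω ρ c (proj Ω ρ c x) := by
  intro v
  let R : W →+ W := AddMonoidHom.mk' (ρ v) (h.act_add v)
  let P : W →+ W := AddMonoidHom.mk' (pw Ω (form1 c v)) (h.pw_map_add _)
  show R _ = P _
  simp only [proj, map_sum]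
  refine Fintype.sum_equiv (Equiv.addLeft v) _ _ fun u => ?_
  show ρ v (pw Ω _ (ρ u x)) = pw Ω _ (pw Ω (-form1 c (v + u)) (ρ (v + u) x))
  rw [h.act_pw, ← h.act_comp, ← h.pw_add, form1_add]
  congr 1
  ring

theorem sum_proj (x : W) : ∑ c : U4, proj Ω ρ c x = x := by
  classical
  simp only [proj]
  rw [Finset.sum_comm, Finset.sum_eq_single (0 : U4)]
  · have : ∀ c : U4, pw Ω (-form1 c 0) (ρ 0 x) = x := fun c => by
      rw [h.act_zero, show form1 c 0 = 0 by simp [form1], neg_zero, pw_zero]
    rw [Finset.sum_congr rfl fun c _ => this c, h.sum_pw_same]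
  · intro u _ hu
    rw [← h.sum_pw_form (-u) (neg_ne_zero.2 hu) (ρ u x)]
    refine Finset.sum_congr rfl fun c _ => ?_
    congr 1
    simp only [form1, Pi.neg_apply]
    ring
  · simp

theorem proj_of_weight {c d : U4} {x : W} (hx : HasWeight Ω ρ d x) :
    proj Ω ρ c x = if c = d then x else 0 := by
  simp only [proj]
  rw [Finset.sum_congr rfl fun u _ => show pw Ω (-form1 c u) (ρ u x) = pw Ω (form1 (d - c) u) x by
    rw [hx u, ← h.pw_add, form1_sub, sub_eq_neg_add]]
  by_cases hcd : c = d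
  · rw [if_pos hcd, Finset.sum_congr rfl fun u _ => show pw Ω (form1 (d - c) u) x = x by
      rw [hcd, sub_self, show form1 0 u = 0 by simp [form1], pw_zero]]
    exact h.sum_pw_same x
  · rw [if_neg hcd]
    exact h.sum_pw_form _ (sub_ne_zero.2 (Ne.symm hcd)) x

theorem proj_add (c : U4) (x y : W) : proj Ω ρ c (x + y) = proj Ω ρ c x + proj Ω ρ c y := by
  simp only [proj, h.act_add, h.pw_map_add, Finset.sum_add_distrib]

theorem weight_unique {c d : U4} {x : W} (hx : x ≠ 0) (hc : HasWeight Ω ρ c x)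
    (hd : HasWeight Ω ρ d x) : c = d := by
  funext i
  rw [← form1_unit c i, ← form1_unit d i]
  exact h.pw_inj hx ((hc _).symm.trans (hd _))

theorem weight_zero (c : U4) : HasWeight Ω ρ c (0 : W) := fun u => by
  rw [h.act_map_zero, h.pw_map_zero]

theorem weight_pw {c : U4} {x : W} (hx : HasWeight Ω ρ c x) (a : ZMod 3) :
    HasWeight Ω ρ c (pw Ω a x) := fun u => by
  rw [h.act_pw, hx u, ← h.pw_add, ← h.pw_add, add_comm]

theorem weight_add {c : U4} {x y : W} (hx : HasWeight Ω ρ c x) (hy : HasWeight Ω ρ c y) :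
    HasWeight Ω ρ c (x + y) := fun u => by
  rw [h.act_add, hx u, hy u, h.pw_map_add]

/-- A common eigenvector is of some weight. -/
theorem exists_weight {z : W} (hz : z ≠ 0) (hev : ∀ u, ∃ k, ρ u z = pw Ω k z) :
    ∃ c, HasWeight Ω ρ c z := by
  choose f hf using hev
  have hadd : ∀ u v, f (u + v) = f u + f v := fun u v => by
    refine h.pw_inj hz ?_
    rw [← hf, h.act_comp, hf v, h.act_pw, hf u, ← h.pw_add, add_comm]
  exact ⟨fun i => f (unit4 i), fun u => by
    rw [hf u]
    exact congrArg (fun k => pw Ω k z) (additive_eq_form1 (AddMonoidHom.mk' f hadd) u)⟩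

omit h in
/-- The set of weights. -/
def weights (Ω : W → W) (ρ : U4 → W → W) : Set U4 := {c | ∃ x, x ≠ 0 ∧ HasWeight Ω ρ c x}

omit h in
theorem mem_weights_of {c : U4} {x : W} (hx : x ≠ 0) (hc : HasWeight Ω ρ c x) :
    c ∈ weights Ω ρ := ⟨x, hx, hc⟩

omit h in
/-- The vectors of a given weight. -/
abbrev space (Ω : W → W) (ρ : U4 → W → W) (c : U4) : Type _ := {x : W // HasWeight Ω ρ c x}

theorem sum_injective (S : Finset U4) :
    Function.Injective fun f : (c : S) → space Ω ρ c.1 => ∑ c : S, (f c).1 := by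
  classical
  intro f g hfg
  funext d
  apply Subtype.ext
  let P : W →+ W := AddMonoidHom.mk' (proj Ω ρ d.1) (h.proj_add _)
  have key : ∀ k : (c : S) → space Ω ρ c.1, P (∑ c : S, (k c).1) = (k d).1 := by
    intro k
    rw [map_sum, Finset.sum_eq_single d]
    · exact (h.proj_of_weight (k d).2).trans (if_pos rfl)
    · intro c _ hc
      exact (h.proj_of_weight (k c).2).trans (if_neg fun e => hc (Subtype.ext e.symm))
    · simp
  rw [← key f, ← key g]
  exact congrArg P hfg

theorem four_le_space [Finite W] {c : U4} (hc : c ∈ weights Ω ρ) :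
    4 ≤ Nat.card (space Ω ρ c) := by
  obtain ⟨x, hx, hcx⟩ := hc
  let f : Option (ZMod 3) → space Ω ρ c := fun o =>
    o.elim ⟨0, h.weight_zero c⟩ fun a => ⟨pw Ω a x, h.weight_pw hcx a⟩
  have hne : ∀ a, pw Ω a x ≠ 0 := fun a e => hx (by
    have := congrArg (pw Ω (-a)) e
    rwa [← h.pw_add, neg_add_cancel, pw_zero, h.pw_map_zero] at this)
  have hinj : Function.Injective f := by
    rintro (_ | a) (_ | b) e
    · rfl
    · exact absurd (congrArg Subtype.val e).symm (hne b)
    · exact absurd (congrArg Subtype.val e) (hne a)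
    · exact congrArg some (h.pw_inj hx (congrArg Subtype.val e))
  calc 4 = Nat.card (Option (ZMod 3)) := by simp [Nat.card_eq_fintype_card]
    _ ≤ _ := Nat.card_le_card_of_injective f hinj

theorem four_pow_le [Finite W] (S : Finset U4) (hS : ∀ c ∈ S, c ∈ weights Ω ρ) :
    4 ^ S.card ≤ Nat.card W := by
  classical
  calc 4 ^ S.card = ∏ _c : S, 4 := by simp
    _ ≤ ∏ c : S, Nat.card (space Ω ρ c.1) :=
      Finset.prod_le_prod (fun c _ => Nat.zero_le _) fun c _ => h.four_le_space (hS c.1 c.2)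
    _ = Nat.card ((c : S) → space Ω ρ c.1) := Nat.card_pi.symm
    _ ≤ _ := Nat.card_le_card_of_injective _ (h.sum_injective S)

theorem exists_weights_nonempty {x : W} (hx : x ≠ 0) : ∃ c, c ∈ weights Ω ρ := by
  by_contra hne
  push Not at hne
  refine hx ((h.sum_proj x).symm.trans (Finset.sum_eq_zero fun c _ => ?_))
  by_contra hc
  exact hne c ⟨_, hc, h.proj_hasWeight c x⟩

theorem eq_sum_of_weights {S : Finset U4} (hS : ∀ c, c ∈ weights Ω ρ → c ∈ S) (x : W) :
    x = ∑ c ∈ S, proj Ω ρ c x := by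
  classical
  conv_lhs => rw [← h.sum_proj x]
  refine (Finset.sum_subset (Finset.subset_univ S) fun c _ hc => ?_).symm
  by_contra hne
  exact hc (hS c ⟨_, hne, h.proj_hasWeight c x⟩)

end IsTriAction

end CfsgLib.LargeFischer85
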